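import Cfsg.Agent.CentralExt.SpMult.Pairing
import Cfsg.Agent.SympSub.Count

/-!
# A stable complement in the preimage of the Siegel radical
-/

set_option autoImplicit false
set_option linter.unusedSectionVars false

namespace Cfsg.Agent.CentralExt.SpMult

open Cfsg.Agent.CentralExt
open Cfsg.Agent.CentralExt.Laced (IsCentralMap lift_comm_eq lift_commute)
open scoped commutatorElement

variable {F : Type*} [Field F] {m : ℕ}

local notation "Gp" => Matrix.symplecticGroup (Fin m) F

/-- The Siegel radical as a homomorphism. -/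
def sHom (m : ℕ) (F : Type*) [Field F] : Multiplicative (Sym m F) →* Matrix.symplecticGroup (Fin m) F :=
  MonoidHom.mk' (fun M => sE M.toAdd) fun a b => (sE_add a.toAdd b.toAdd).symm

theorem sHom_apply (M : Sym m F) : sHom m F (Multiplicative.ofAdd M) = sE M := rfl

theorem mem_range_sHom {g : Gp} : g ∈ (sHom m F).range ↔ ∃ M, g = sE M :=
  ⟨fun ⟨M, h⟩ => ⟨M.toAdd, h.symm⟩, fun ⟨M, h⟩ => ⟨Multiplicative.ofAdd M, h.symm⟩⟩

variable {E : Type*} [Group E]

/-- A complement to the kernel in the preimage of the Siegel radical, stable under the lifts of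
upper Levi root elements. -/
structure Compl (τ : E →* Matrix.symplecticGroup (Fin m) F) (T₀ : Subgroup E) : Prop where
  bot : ∀ x ∈ T₀, τ x = 1 → x = 1
  image : T₀.map τ = (sHom m F).range
  stable : ∀ i j : Fin m, i < j → ∀ (t : F) (e : E), τ e = tv i j t → ∀ x ∈ T₀, e * x * e⁻¹ ∈ T₀

variable {p : ℕ} [Fact p.Prime] [CharP F p] [Fintype F]
  {τ : E →* Matrix.symplecticGroup (Fin m) F} (hC : Cover p τ) (hG : Good m (Fintype.card F))

/-- Scaling of symmetric matrices. -/
def scale (c : F) (M : Sym m F) : Sym m F :=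
  ⟨c • (M : Matrix (Fin m) (Fin m) F), by rw [mem_Sym, Matrix.transpose_smul, mem_Sym.1 M.2]⟩

/-- The action of a Levi transvection on symmetric matrices. -/
def tvAct (i k : Fin m) (t : F) (M : Sym m F) : Sym m F :=
  ⟨(1 + Matrix.single i k t) * (M : Matrix (Fin m) (Fin m) F) * (1 + Matrix.single k i t), by
    rw [mem_Sym, Matrix.transpose_mul, Matrix.transpose_mul, Matrix.transpose_add, Matrix.transpose_add,
      Matrix.transpose_one, Matrix.transpose_single, Matrix.transpose_single, mem_Sym.1 M.2, mul_assoc]⟩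

include hC hG in
/-- The case `q ≥ 4`. -/
theorem exists_compl_of_four_le (h4 : 4 ≤ Fintype.card F) : ∃ T₀ : Subgroup E, Compl τ T₀ := by
  classical
  obtain ⟨a, ha⟩ : ∃ x : Fˣ, x ^ 2 ≠ 1 := not_forall.1 fun hall => by
    have := Nat.le_of_dvd (by norm_num) ((FiniteField.forall_pow_eq_one_iff F 2).1 hall)
    omega
  set c : F := ((a : F) * a - 1)⁻¹ with hc
  have hne : (a : F) * a - 1 ≠ 0 := fun h => ha (Units.ext (by simpa [sq] using sub_eq_zero.1 h))
  obtain ⟨h, hh⟩ := hC.surj (dgS fun _ => a)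
  choose L hL using fun M : Sym m F => hC.surj (sE M)
  have hconj : ∀ M : Sym m F, dgS (fun _ : Fin m => a) * sE M * (dgS fun _ => a)⁻¹ = sE (scale ((a : F) * a) M) :=
    fun M => dgS_conj _ _ _ fun x y => by simp [scale]; ring
  let ψ : Sym m F → E := fun M => ⁅h, L (scale c M)⁆
  have hτψ : ∀ M, τ (ψ M) = sE M := fun M => by
    simp only [ψ]
    rw [map_commutatorElement, hh, hL, commutatorElement_def, hconj, sE_inv, sE_add]
    congr 1
    apply Subtype.ext
    simp only [scale, AddSubgroup.coe_add, NegMemClass.coe_neg]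
    rw [smul_smul, ← sub_eq_add_neg, ← sub_smul, hc]
    rw [← sub_one_mul, mul_inv_cancel₀ hne, one_smul]
  have hadd : ∀ M N, ψ (M + N) = ψ M * ψ N := fun M N => by
    have e : scale c (M + N) = scale c M + scale c N := Subtype.ext (smul_add _ _ _)
    simp only [ψ, e]
    rw [lift_comm_eq (isCentralMap hC) (x := h) (y := L (scale c M) * L (scale c N)) rfl
      (by rw [map_mul, hL, hL, hL, sE_add])]
    have e2 : ∀ u b b' : E, ⁅u, b * b'⁆ = ⁅u, b⁆ * (b * ⁅u, b'⁆ * b⁻¹) := fun u b b' => by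
      simp only [commutatorElement_def]; group
    have hcm : Commute (L (scale c M)) ⁅h, L (scale c N)⁆ :=
      CL.siegel hC hG (scale c M) N _ _ (hL _) (hτψ N)
    rw [e2, hcm.eq, mul_inv_cancel_right]
  let Ψ : Multiplicative (Sym m F) →* E := MonoidHom.mk' (fun M => ψ M.toAdd) fun x y => hadd x.toAdd y.toAdd
  refine ⟨Ψ.range, ⟨?_, ?_, ?_⟩⟩
  · rintro _ ⟨M, rfl⟩ h1
    change τ (ψ M.toAdd) = 1 at h1
    rw [hτψ, ← sE_zero] at h1
    have : M = 1 := by
      apply Multiplicative.toAdd.injective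
      exact sE_injective h1
    rw [this, map_one]
  · rw [MonoidHom.map_range]
    congr 1
    exact MonoidHom.ext fun M => hτψ M.toAdd
  · rintro i k hik t e he _ ⟨M, rfl⟩
    refine ⟨Multiplicative.ofAdd (tvAct i k t M.toAdd), ?_⟩
    change ψ (tvAct i k t M.toAdd) = e * ψ M.toAdd * e⁻¹
    simp only [ψ]
    rw [conjugate_commutatorElement]
    refine lift_comm_eq (isCentralMap hC) ?_ ?_
    · rw [map_mul, map_mul, map_inv, he, hh]
      have h1 : dgS (fun _ : Fin m => a) * tv i k t * (dgS fun _ => a)⁻¹ = tv i k t := by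
        rw [dgS_tv _ hik.ne]; congr 1; field_simp
      rw [← mul_inv_eq_iff_eq_mul.1 h1, mul_inv_cancel_right]
    · rw [map_mul, map_mul, map_inv, he, hL, hL]
      symm
      refine conj_tv hik.ne t _ _ ?_
      simp [scale, tvAct]

/-! ## Prime fields -/

include hC hG in
theorem pow_eq_one_of_siegel (hexp : ∀ z, τ z = 1 → z ^ p = 1) (hq : Fintype.card F = p)
    (hp3 : p = 2 ∨ p = 3) (M : Sym m F) (x : E) (hx : τ x = sE M) : x ^ p = 1 := by
  classical
  have hm2 := hG.two_le
  have key : ∀ (x y : E), τ x = τ y → x ^ p = y ^ p := by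
    intro x y h
    have hz : τ (y⁻¹ * x) = 1 := by rw [map_mul, map_inv, h, inv_mul_cancel]
    have hc : Commute y (y⁻¹ * x) := Subgroup.mem_center_iff.1 (hC.cen hz) y
    have : (y * (y⁻¹ * x)) ^ p = y ^ p := by rw [hc.mul_pow, hexp _ hz, mul_one]
    rwa [mul_inv_cancel_left] at this
  choose L hL using fun N : Sym m F => hC.surj (sE N)
  set f : Sym m F → E := fun N => L N ^ p with hf
  suffices hall : ∀ N, f N = 1 by rw [key x (L M) (by rw [hx, hL]), ← hall M]
  have hτf : ∀ N, τ (f N) = 1 := fun N => by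
    simp only [hf]
    rw [map_pow, hL, sE_pow, ← sE_zero]
    congr 1
    apply Subtype.ext
    rw [AddSubgroup.coe_nsmul, ← Nat.cast_smul_eq_nsmul F, CharP.cast_eq_zero, zero_smul]; rfl
  have hadd : ∀ M N, f (M + N) = f M * f N := fun M N => by
    simp only [hf]
    rw [key (L (M + N)) (L M * L N) (by rw [map_mul, hL, hL, hL, sE_add])]
    exact (CL.siegel hC hG M N _ _ (hL M) (hL N)).mul_pow p
  have hinv : ∀ (g : Gp) (M N : Sym m F), g * sE M * g⁻¹ = sE N → f N = f M := fun g M N hg => by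
    obtain ⟨e, he⟩ := hC.surj g
    have : f N = e * f M * e⁻¹ := by
      simp only [hf]
      rw [← conj_pow]
      exact key _ _ (by rw [map_mul, map_mul, map_inv, hL, hL, he, hg])
    rw [this, (Subgroup.mem_center_iff.1 (hC.cen (hτf M)) e), mul_inv_cancel_right]
  have h0 : f 0 = 1 := by
    have := hadd 0 0; rw [add_zero] at this; exact mul_eq_left.1 this.symm
  have hsh : ∀ i j, i ≠ j → ∀ t, f (shM i j t) = 1 := by
    intro i j hij t
    rcases hp3 with rfl | rfl
    · have hm : 3 ≤ m := by have := hG.two; omega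
      obtain ⟨l, hli, hlj⟩ := exists_ne₂ hm i j
      obtain ⟨a, ha⟩ := hC.surj (tv i l t : Gp)
      obtain ⟨b, hb⟩ := hC.surj (sE (shM l j (1 : F)))
      have hab : τ ⁅a, b⁆ = sE (shM i j t) := by
        rw [map_commutatorElement, ha, hb, comm_tv_sh hli.symm hlj, mul_one]
      have hb2 : ∀ g, Commute g (b ^ 2) := fun g => Subgroup.mem_center_iff.1 (hC.cen (show τ (b ^ 2) = 1 by
        rw [map_pow, hb, sE_pow, ← sE_zero]
        congr 1
        apply Subtype.ext
        rw [AddSubgroup.coe_nsmul, ← Nat.cast_smul_eq_nsmul F, CharP.cast_eq_zero, zero_smul]; rfl)) g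
      have hcm : Commute b ⁅a, b⁆ := CL.siegel hC hG _ _ _ _ hb hab
      have e : ⁅a, b⁆ ^ 2 = ⁅a, b ^ 2⁆ := by
        have e2 : ⁅a, b * b⁆ = ⁅a, b⁆ * (b * ⁅a, b⁆ * b⁻¹) := by simp only [commutatorElement_def]; group
        rw [hcm.eq, mul_inv_cancel_right] at e2
        rw [sq, sq, e2]
      simp only [hf]
      rw [key _ ⁅a, b⁆ (by rw [hab, hL]), e, commutatorElement_eq_one_iff_mul_comm]
      exact hb2 a
    · have hd := hinv (dgS (Pi.mulSingle i (-1 : Fˣ))) (shM i j t) (shM i j (-t)) (by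
        rw [dgS_sh]; congr 2; simp [Pi.mulSingle_apply, hij.symm])
      have h1 := hadd (shM i j t) (shM i j (-t))
      rw [← shM_add, add_neg_cancel, show shM i j (0 : F) = 0 from Subtype.ext (by simp [shM_val]), h0, hd] at h1
      have h3 := hexp _ (hτf (shM i j t))
      rwa [pow_succ, sq, ← h1, one_mul] at h3
  have hlg : ∀ i t, f (lgM i t) = 1 := by
    intro i t
    obtain ⟨j, hj⟩ : ∃ j, j ≠ i :=
      haveI : Nontrivial (Fin m) := Fin.nontrivial_iff_two_le.2 hm2
      exists_ne i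
    have := hinv (tv i j (1 : F)) (lgM j t) _ (tv_lg_move hj.symm 1 t)
    rw [one_mul, one_mul, one_mul, hadd, hadd, hsh i j hj.symm, mul_one, mul_eq_left] at this
    exact this
  intro N
  induction N using sym_induction with
  | h0 => exact h0
  | hadd M N hM hN => rw [hadd, hM, hN, one_mul]
  | hl i t => exact hlg i t
  | hs i j h t => exact hsh i j h.ne t

include hC hG in
/-- A family of generators of the radical stable under the upper transvections gives a complement. -/
theorem compl_of_gens (hexp : ∀ z, τ z = 1 → z ^ p = 1) (hq : Fintype.card F = p)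
    (hp3 : p = 2 ∨ p = 3) (s : Fin m → Fin m → E) (l : Fin m → E)
    (hs : ∀ i j, i ≠ j → τ (s i j) = sE (shM i j 1)) (hl : ∀ i, τ (l i) = sE (lgM i 1))
    (hstab : ∀ i j, i < j → ∀ T₀ : Subgroup E, (∀ a, l a ∈ T₀) → (∀ a b, a ≠ b → s a b ∈ T₀) →
      ∀ e, τ e = tv i j 1 → (∀ a b, a < b → e * s a b * e⁻¹ ∈ T₀) ∧ ∀ a, e * l a * e⁻¹ ∈ T₀)
    (hsymm : ∀ i j, i ≠ j → s i j = s j i) : ∃ T₀ : Subgroup E, Compl τ T₀ := by
  classical
  have hpp : p.Prime := Fact.out
  haveI : NeZero p := ⟨hpp.ne_zero⟩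
  let ι := Fin m ⊕ {q : Fin m × Fin m // q.1 < q.2}
  let g : ι → E := Sum.elim l fun q => s q.1.1 q.1.2
  let M : ι → Sym m F := Sum.elim (fun i => lgM i 1) fun q => shM q.1.1 q.1.2 1
  have hg : ∀ x, τ (g x) = sE (M x) := by
    rintro (i | ⟨⟨i, j⟩, hij⟩)
    · exact hl i
    · exact hs i j hij.ne
  have hgp : ∀ x, g x ^ p = 1 := fun x => pow_eq_one_of_siegel hC hG hexp hq hp3 _ _ (hg x)
  let φ : ι → Multiplicative (ZMod p) →* E := fun x =>
    MonoidHom.mk' (fun z => g x ^ z.toAdd.val) fun a b => by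
      show g x ^ (a.toAdd + b.toAdd).val = _
      rw [ZMod.val_add, ← pow_eq_pow_mod _ (hgp x), pow_add]
  have hφc : Pairwise fun x y => ∀ a b, Commute (φ x a) (φ y b) := fun x y _ a b =>
    ((CL.siegel hC hG (M x) (M y) _ _ (hg x) (hg y)).pow_left _).pow_right _
  let Φ := MonoidHom.noncommPiCoprod φ hφc
  let T₀ := Φ.range
  have hgT : ∀ x, g x ∈ T₀ := fun x => ⟨Pi.mulSingle x (Multiplicative.ofAdd 1), by
    simp only [Φ, MonoidHom.noncommPiCoprod_mulSingle, φ, MonoidHom.mk'_apply, toAdd_ofAdd]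
    haveI : Fact (1 < p) := ⟨hpp.one_lt⟩
    rw [ZMod.val_one, pow_one]⟩
  have hlT : ∀ a, l a ∈ T₀ := fun a => hgT (Sum.inl a)
  have hsT : ∀ a b, a ≠ b → s a b ∈ T₀ := fun a b hab => by
    rcases hab.lt_or_gt with h | h
    · exact hgT (Sum.inr ⟨(a, b), h⟩)
    · rw [hsymm a b hab]; exact hgT (Sum.inr ⟨(b, a), h⟩)
  have hτT : T₀ ≤ (sHom m F).range.comap τ := by
    rintro _ ⟨f, rfl⟩
    refine Subgroup.pi_mem_of_mulSingle_mem (H := (((sHom m F).range.comap τ)).comap Φ) f fun x => ?_
    simp only [Subgroup.mem_comap, Φ, MonoidHom.noncommPiCoprod_mulSingle, φ, MonoidHom.mk'_apply,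
      map_pow, hg]
    exact pow_mem (mem_range_sHom.2 ⟨_, rfl⟩) _
  have hmap : T₀.map τ = (sHom m F).range := by
    refine le_antisymm (Subgroup.map_le_iff_le_comap.2 hτT) ?_
    rintro _ ⟨N, rfl⟩
    change sE N.toAdd ∈ _
    generalize N.toAdd = N
    have hcast : ∀ t : F, ∃ k : ℕ, (k : F) = t := exists_nat_cast hpp hq
    induction N using sym_induction with
    | h0 => rw [sE_zero]; exact one_mem _
    | hadd A B hA hB => rw [← sE_add]; exact mul_mem hA hB
    | hl i t =>
      obtain ⟨k, rfl⟩ := hcast t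
      have : k • lgM i (1 : F) = lgM i (k : F) := by
        apply Subtype.ext
        rw [AddSubgroup.coe_nsmul, lgM_val, lgM_val, Matrix.smul_single, nsmul_one]
      rw [← this, ← sE_pow, ← hl i]
      exact pow_mem (Subgroup.mem_map_of_mem _ (hlT i)) k
    | hs i j h t =>
      obtain ⟨k, rfl⟩ := hcast t
      have : k • shM i j (1 : F) = shM i j (k : F) := by
        apply Subtype.ext
        rw [AddSubgroup.coe_nsmul, shM_val, shM_val, smul_add, Matrix.smul_single, Matrix.smul_single,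
          nsmul_one]
      rw [← this, ← sE_pow, ← hs i j h.ne]
      exact pow_mem (Subgroup.mem_map_of_mem _ (hsT i j h.ne)) k
  have hcard : Nat.card ↥T₀ ≤ Nat.card ↥(sHom m F).range := by
    have h1 : Nat.card ↥T₀ ≤ Nat.card (ι → Multiplicative (ZMod p)) :=
      Nat.card_le_card_of_surjective _ Φ.rangeRestrict_surjective
    refine h1.trans (le_of_eq ?_)
    have hinj : Function.Injective (sHom m F) := fun x y h =>
      Multiplicative.toAdd.injective (sE_injective h)
    rw [← Nat.card_congr (MonoidHom.ofInjective hinj).toEquiv, Nat.card_congr Multiplicative.toAdd,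
      Nat.card_congr (show ↥(Sym m F) ≃ _ from Cfsg.Agent.SympSub.symmEquiv F m), Nat.card_fun, Nat.card_prod,
      Nat.card_fun, Nat.card_fun, Nat.card_sum, Nat.card_congr Multiplicative.toAdd, Nat.card_zmod,
      Nat.card_eq_fintype_card (α := F), hq, pow_add]
  haveI : Finite ↥T₀ := Finite.of_surjective _ Φ.rangeRestrict_surjective
  refine ⟨T₀, ⟨?_, hmap, ?_⟩⟩
  · intro x hx h1
    let r : ↥T₀ →* ↥(sHom m F).range := (τ.comp T₀.subtype).codRestrict _ fun y => hτT y.2
    have hsur : Function.Surjective r := fun y => by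
      have hy : (y : Gp) ∈ T₀.map τ := by rw [hmap]; exact y.2
      obtain ⟨z, hz, hz'⟩ := hy
      exact ⟨⟨z, hz⟩, Subtype.ext hz'⟩
    have hbij := hsur.bijective_of_nat_card_le hcard
    exact congrArg Subtype.val (hbij.1 (show r ⟨x, hx⟩ = r 1 from Subtype.ext (by rw [map_one]; exact h1)))
  · intro i j hij t e he
    obtain ⟨k, rfl⟩ := exists_nat_cast hpp hq t
    obtain ⟨a, ha⟩ := hC.surj (tv i j (1 : F) : Gp)
    obtain ⟨hsa, hla⟩ := hstab i j hij T₀ hlT hsT a ha
    have hone : ∀ x ∈ T₀, a * x * a⁻¹ ∈ T₀ := by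
      rintro _ ⟨f, rfl⟩
      refine Subgroup.pi_mem_of_mulSingle_mem (H := (T₀.comap (MulAut.conj a).toMonoidHom).comap Φ) f
        fun x => ?_
      show a * Φ (Pi.mulSingle x (f x)) * a⁻¹ ∈ T₀
      simp only [Φ, MonoidHom.noncommPiCoprod_mulSingle, φ, MonoidHom.mk'_apply, ← conj_pow]
      refine pow_mem ?_ _
      rcases x with b | ⟨⟨b, c⟩, hbc⟩
      · exact hla b
      · exact hsa b c hbc
    have hk : ∀ k : ℕ, ∀ x ∈ T₀, a ^ k * x * (a ^ k)⁻¹ ∈ T₀ ∧ τ (a ^ k) = tv i j (k : F) := by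
      intro k
      induction k with
      | zero =>
        intro x hx
        refine ⟨by simpa using hx, ?_⟩
        rw [pow_zero, map_one, Nat.cast_zero, tv_eq hij.ne,
          Matrix.SpecialLinearGroup.transvection_coeff_zero, map_one]
      | succ k ih =>
        intro x hx
        refine ⟨?_, ?_⟩
        · rw [show a ^ (k + 1) * x * (a ^ (k + 1))⁻¹ = a ^ k * (a * x * a⁻¹) * (a ^ k)⁻¹ by
            rw [pow_succ]; group]
          exact (ih _ (hone x hx)).1
        · rw [pow_succ, map_mul, (ih x hx).2, ha, tv_eq hij.ne, tv_eq hij.ne, tv_eq hij.ne, ← map_mul,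
            Nat.cast_succ]
          congr 1
          exact Subtype.ext (Matrix.transvection_mul_transvection_same i j hij.ne _ _)
    intro x hx
    obtain ⟨h1, h2⟩ := hk k x hx
    have hz : τ ((a ^ k)⁻¹ * e) = 1 := by rw [map_mul, map_inv, h2, he, inv_mul_cancel]
    have e1 : e * x * e⁻¹ = a ^ k * x * (a ^ k)⁻¹ := by
      have hcz := Subgroup.mem_center_iff.1 (hC.cen hz) x
      calc e * x * e⁻¹ = a ^ k * (((a ^ k)⁻¹ * e) * x) * e⁻¹ := by group
        _ = a ^ k * (x * ((a ^ k)⁻¹ * e)) * e⁻¹ := by rw [hcz]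
        _ = _ := by group
    rw [e1]; exact h1

set_option maxHeartbeats 3200000 in
include hC hG in
/-- The case `m ≥ 3` over a prime field with two or three elements. -/
theorem exists_compl_of_prime (hexp : ∀ z, τ z = 1 → z ^ p = 1) (hq : Fintype.card F = p)
    (hp3 : p = 2 ∨ p = 3) (hm : 3 ≤ m) : ∃ T₀ : Subgroup E, Compl τ T₀ := by
  classical
  have hc := isCentralMap hC
  choose L hL using fun g : Gp => hC.surj g
  let P : Fin m → Fin m → Fin m → E := fun i k j => ⁅L (tv i k (1 : F)), L (sE (shM k j 1))⁆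
  have hτP : ∀ i k j, i ≠ k → k ≠ j → τ (P i k j) = sE (shM i j 1) := fun i k j h1 h2 => by
    simp only [P]; rw [map_commutatorElement, hL, hL, comm_tv_sh h1 h2, one_mul]
  have hadd : ∀ (i j : Fin m) (x y : Sym m F), i ≠ j →
      ⁅L (tv i j (1 : F)), L (sE (x + y))⁆ =
        ⁅L (tv i j (1 : F)), L (sE x)⁆ * ⁅L (tv i j (1 : F)), L (sE y)⁆ := by
    intro i j x y hij
    rw [lift_comm_eq hc (x := L (tv i j (1 : F))) (y := L (sE x) * L (sE y)) rfl
      (by rw [map_mul, hL, hL, hL, sE_add])]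
    have e2 : ∀ u b b' : E, ⁅u, b * b'⁆ = ⁅u, b⁆ * (b * ⁅u, b'⁆ * b⁻¹) := fun u b b' => by
      simp only [commutatorElement_def]; group
    obtain ⟨N, hN⟩ : ∃ N, τ ⁅L (tv i j (1 : F)), L (sE y)⁆ = sE N := by
      refine ⟨tvAct i j 1 y + -y, ?_⟩
      rw [map_commutatorElement, hL, hL, commutatorElement_def, conj_tv hij 1 y (tvAct i j 1 y) rfl,
        sE_inv, sE_add]
    rw [e2, (CL.siegel hC hG x N _ _ (hL _) hN).eq, mul_inv_cancel_right]
  have hlink : ∀ i k l j, i ≠ j → i ≠ k → k ≠ j → i ≠ l → l ≠ j → k ≠ l → P i l j = P i k j := by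
    intro i k l j hij hik hkj hil hlj hkl
    have hA : τ ⁅L (tv i k (1 : F)), L (tv k l (1 : F))⁆ = tv i l 1 := by
      rw [map_commutatorElement, hL, hL, tv_eq hik, tv_eq hkl, tv_eq hil, ← map_commutatorElement,
        Cfsg.Agent.Linear.transvection_commutator hil hik hkl, one_mul]
    have hQ : τ ⁅L (tv k l (1 : F)), L (sE (shM l j 1))⁆ = sE (shM k j 1) := hτP k l j hkl hlj
    simp only [P]
    rw [lift_comm_eq hc (x := ⁅L (tv i k (1 : F)), L (tv k l (1 : F))⁆) (y := L (sE (shM l j 1)))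
        (by rw [hL, hA]) rfl,
      lift_comm_eq hc (x := L (tv i k (1 : F))) (y := ⁅L (tv k l (1 : F)), L (sE (shM l j 1))⁆)
        (y' := L (sE (shM k j 1))) rfl (by rw [hL, hQ])]
    refine Laced.hall_witt (CL.tv_sh hC hG hik hkl hkj 1 1 _ _ (hL _) (hL _))
      (CL.tv_sh hC hG hil hkl.symm hlj 1 1 _ _ hA hQ) ?_
    refine CL.siegel hC hG (shM i j 1) (shM k j 1) _ _ ?_ hQ
    rw [map_commutatorElement, hL, hQ, comm_tv_sh hik hkj, one_mul]
  choose mid hmid using fun i j : Fin m => exists_ne₂ hm i j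
  have hP : ∀ i k j, i ≠ j → i ≠ k → k ≠ j → P i k j = P i (mid i j) j := by
    intro i k j hij hik hkj
    rcases eq_or_ne k (mid i j) with h | h
    · rw [← h]
    · exact (hlink i k (mid i j) j hij hik hkj (hmid i j).1.symm (hmid i j).2 h).symm
  let s : Fin m → Fin m → E := fun i j => P i (mid i j) j
  have hs : ∀ i j, i ≠ j → τ (s i j) = sE (shM i j 1) := fun i j hij => hτP _ _ _ (hmid i j).1.symm (hmid i j).2
  -- symmetry
  have hsymm : ∀ i j, i ≠ j → s i j = s j i := by
    intro i j hij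
    obtain ⟨k, hki, hkj⟩ := exists_ne₂ hm i j
    set a := L (tv i k (1 : F))
    set b := L (tv j k (1 : F))
    set y := L (sE (lgM k (1 : F)))
    have hab : Commute a b := CL.tv_tv hC hG hki.symm hkj.symm hki.symm hkj 1 1 _ _ (hL _) (hL _)
    have key : ∀ (i j : Fin m), i ≠ j → i ≠ k → j ≠ k →
        L (tv i k (1 : F)) * ⁅L (tv j k (1 : F)), L (sE (lgM k (1 : F)))⁆ * (L (tv i k (1 : F)))⁻¹ =
          P i k j * ⁅L (tv j k (1 : F)), L (sE (lgM k (1 : F)))⁆ := by
      intro i j hij hik hjk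
      have hv : τ ⁅L (tv j k (1 : F)), L (sE (lgM k (1 : F)))⁆ = sE (shM k j 1 + lgM j 1) := by
        rw [map_commutatorElement, hL, hL, commutatorElement_def, tv_lg_move hjk, sE_inv, sE_add,
          shM_comm j k, one_mul, one_mul]
        congr 1; abel
      set v := ⁅L (tv j k (1 : F)), L (sE (lgM k (1 : F)))⁆
      have e1 : ⁅L (tv i k (1 : F)), v⁆ = P i k j := by
        rw [lift_comm_eq hc (x := L (tv i k (1 : F))) (y := L (sE (shM k j 1 + lgM j 1))) rfl
          (by rw [hv, hL]), hadd i k _ _ hik,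
          commutatorElement_eq_one_iff_mul_comm.2
            (CL.tv_lg hC hG hik hjk.symm 1 1 _ _ (hL _) (hL _)).eq, mul_one]
      rw [← e1, commutatorElement_def, inv_mul_cancel_right]
    have h1 : a * (b * y * b⁻¹) * a⁻¹ = b * (a * y * a⁻¹) * b⁻¹ := by
      calc a * (b * y * b⁻¹) * a⁻¹ = (a * b) * y * (a * b)⁻¹ := by group
        _ = (b * a) * y * (b * a)⁻¹ := by rw [hab.eq]
        _ = _ := by group
    have k1 := key i j hij hki.symm hkj.symm
    have k2 := key j i hij.symm hkj.symm hki.symm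
    have e1 : a * (b * y * b⁻¹) * a⁻¹ = P i k j * ⁅b, y⁆ * (⁅a, y⁆ * y) := by
      calc a * (b * y * b⁻¹) * a⁻¹ = (a * ⁅b, y⁆ * a⁻¹) * (⁅a, y⁆ * y) := by
            simp only [commutatorElement_def]; group
        _ = _ := by rw [k1]
    have e2 : b * (a * y * a⁻¹) * b⁻¹ = P j k i * ⁅a, y⁆ * (⁅b, y⁆ * y) := by
      calc b * (a * y * a⁻¹) * b⁻¹ = (b * ⁅a, y⁆ * b⁻¹) * (⁅b, y⁆ * y) := by
            simp only [commutatorElement_def]; group
        _ = _ := by rw [k2]
    rw [e1, e2] at h1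
    obtain ⟨A, hA⟩ : ∃ A, τ ⁅a, y⁆ = sE A :=
      ⟨shM i k 1 + lgM i 1, by
        rw [map_commutatorElement, hL, hL, commutatorElement_def, tv_lg_move hki.symm, sE_inv, sE_add,
          one_mul, one_mul]
        congr 1; abel⟩
    obtain ⟨B, hB⟩ : ∃ B, τ ⁅b, y⁆ = sE B :=
      ⟨shM j k 1 + lgM j 1, by
        rw [map_commutatorElement, hL, hL, commutatorElement_def, tv_lg_move hkj.symm, sE_inv, sE_add,
          one_mul, one_mul]
        congr 1; abel⟩
    have hAB : Commute ⁅a, y⁆ ⁅b, y⁆ := CL.siegel hC hG A B _ _ hA hB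
    rw [show P i k j * ⁅b, y⁆ * (⁅a, y⁆ * y) = P i k j * (⁅b, y⁆ * ⁅a, y⁆) * y by group,
      show P j k i * ⁅a, y⁆ * (⁅b, y⁆ * y) = P j k i * (⁅a, y⁆ * ⁅b, y⁆) * y by group, hAB.eq] at h1
    have h2 := mul_right_cancel (mul_right_cancel h1)
    simp only [s]
    rw [← hP i k j hij hki.symm hkj, ← hP j k i hij.symm hkj.symm hki, h2]
  let M' : Fin m := ⟨m - 1, by omega⟩
  have hlast : ∀ i : Fin m, i ≠ M' → i < M' := fun i h => by
    have : (i : ℕ) ≠ m - 1 := fun e => h (Fin.ext e)
    exact Fin.lt_def.2 (show (i : ℕ) < m - 1 by omega)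
  let v : Fin m → Fin m → E := fun i j => ⁅L (tv i j (1 : F)), L (sE (lgM j 1))⁆
  have hτv : ∀ i j, i ≠ j → τ (v i j) = sE (shM i j 1 + lgM i 1) := fun i j hij => by
    simp only [v]
    rw [map_commutatorElement, hL, hL, commutatorElement_def, tv_lg_move hij, sE_inv, sE_add, one_mul,
      one_mul]
    congr 1; abel
  let l : Fin m → E := fun i => if i = M' then L (sE (lgM M' 1)) else v i M' * (s i M')⁻¹
  have hl : ∀ i, τ (l i) = sE (lgM i 1) := fun i => by
    simp only [l]
    split_ifs with h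
    · rw [hL, h]
    · rw [map_mul, map_inv, hτv i M' h, hs i M' h, sE_inv, sE_add]
      congr 1; abel
  -- the values of `v`
  have hv : ∀ i j, i < j → v i j = s i j * l i := by
    intro i j hij
    rcases eq_or_ne j M' with rfl | hjM
    · have hne : i ≠ M' := hij.ne
      simp only [l, hne, if_false]
      rw [(CL.siegel hC hG (shM i M' 1) _ _ _ (hs i M' hne)
        (show τ (v i M' * (s i M')⁻¹) = sE (shM i M' 1 + lgM i 1 + -(shM i M' 1)) by
          rw [map_mul, map_inv, hτv i M' hne, hs i M' hne, sE_inv, sE_add])).eq, inv_mul_cancel_right]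
    · have hne : i ≠ M' := fun h => by
        have h1 := hlast j hjM
        rw [h] at hij
        exact lt_asymm hij h1
      set a := L (tv i j (1 : F))
      set b := L (tv j M' (1 : F))
      set c := L (tv i M' (1 : F))
      set y := L (sE (lgM M' (1 : F)))
      have hvb : v j M' = ⁅b, y⁆ := rfl
      have hsl : v j M' = l j * s j M' := by simp only [l, hjM, if_false, inv_mul_cancel_right]
      -- conjugation of `v j M'` by `a`, computed in two ways
      have hy : ⁅a, y⁆ = 1 := commutatorElement_eq_one_iff_mul_comm.2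
        (CL.tv_lg hC hG hij.ne hjM 1 1 _ _ (hL _) (hL _)).eq
      have hab : τ (a * b * a⁻¹) = τ (c * b) := by
        have hT := Cfsg.Agent.Linear.transvection_commutator hne hij.ne hjM (1 : F) 1
        rw [one_mul, commutatorElement_def] at hT
        rw [map_mul, map_mul, map_mul, map_inv, hL, hL, hL, tv_eq hij.ne, tv_eq hjM, tv_eq hne,
          ← map_inv, ← map_mul, ← map_mul, ← map_mul, ← hT]
        congr 1
        group
      have e1 : a * v j M' * a⁻¹ = ⁅c * b, y⁆ := by
        rw [hvb, conjugate_commutatorElement, show a * y * a⁻¹ = y by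
          rw [commutatorElement_def] at hy
          calc a * y * a⁻¹ = (a * y * a⁻¹ * y⁻¹) * y := by group
            _ = y := by rw [hy, one_mul]]
        exact lift_comm_eq hc hab rfl
      have e2 : ⁅c, v j M'⁆ = s i j := by
        rw [lift_comm_eq hc (x := c) (y := L (sE (shM M' j 1 + lgM j 1))) rfl
          (by rw [hτv j M' hjM, hL, shM_comm j M']), hadd i M' _ _ hne,
          commutatorElement_eq_one_iff_mul_comm.2
            (CL.tv_lg hC hG hne (fun h => hjM h.symm) 1 1 _ _ (hL _) (hL _)).eq, mul_one]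
        exact hP i M' j hij.ne hne (fun h => hjM h.symm)
      have e3 : a * v j M' * a⁻¹ = s i j * v j M' * v i M' := by
        rw [e1, show ⁅c * b, y⁆ = c * ⁅b, y⁆ * c⁻¹ * ⁅c, y⁆ by simp only [commutatorElement_def]; group,
          ← hvb, show c * v j M' * c⁻¹ = ⁅c, v j M'⁆ * v j M' by
            rw [commutatorElement_def, inv_mul_cancel_right], e2]
      -- the same, through `v j M' = l j * s j M'`
      have e4 : a * s j M' * a⁻¹ = s i M' * s j M' := by
        have : ⁅a, s j M'⁆ = s i M' := by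
          rw [lift_comm_eq hc (x := a) (y := L (sE (shM j M' 1))) rfl (by rw [hs j M' hjM, hL])]
          exact hP i j M' hne hij.ne hjM
        rw [← this, commutatorElement_def, inv_mul_cancel_right]
      have e5 : a * l j * a⁻¹ = v i j * l j := by
        have : ⁅a, l j⁆ = v i j := by
          simp only [v]
          exact lift_comm_eq hc rfl (by rw [hl, hL])
        rw [← this, commutatorElement_def, inv_mul_cancel_right]
      have e6 : a * v j M' * a⁻¹ = v i j * l j * (s i M' * s j M') := by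
        rw [hsl, ← e4, ← e5]; group
      have hli : l i = v i M' * (s i M')⁻¹ := by simp only [l, hne, if_false]
      have hcc : ∀ {x y : E} {A B : Sym m F}, τ x = sE A → τ y = sE B → Commute x y :=
        fun h h' => CL.siegel hC hG _ _ _ _ h h'
      rw [e6, hsl] at e3
      -- an equation in an abelian group
      let S' : Subgroup E := (sHom m F).range.comap τ
      have hab' : ∀ x ∈ S', ∀ y ∈ S', Commute x y := by
        intro x hx y hy
        obtain ⟨A, hA⟩ := mem_range_sHom.1 hx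
        obtain ⟨B, hB⟩ := mem_range_sHom.1 hy
        exact hcc hA hB
      letI : CommGroup S' :=
        { (inferInstance : Group S') with
          mul_comm := fun x y => Subtype.ext (hab' x x.2 y y.2) }
      have hmem : ∀ {x : E} {A : Sym m F}, τ x = sE A → x ∈ S' := fun h => mem_range_sHom.2 ⟨_, h⟩
      let X₁ : S' := ⟨v i j, hmem (hτv i j hij.ne)⟩
      let X₂ : S' := ⟨l j, hmem (hl j)⟩
      let X₃ : S' := ⟨s i M', hmem (hs i M' hne)⟩
      let X₄ : S' := ⟨s j M', hmem (hs j M' hjM)⟩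
      let X₅ : S' := ⟨s i j, hmem (hs i j hij.ne)⟩
      let X₆ : S' := ⟨v i M', hmem (hτv i M' hne)⟩
      have heq : X₁ * X₂ * (X₃ * X₄) = X₅ * (X₂ * X₄) * X₆ := Subtype.ext e3
      have : X₁ = X₅ * (X₆ * X₃⁻¹) := by
        have h7 : X₁ * X₃ = X₅ * X₆ := by
          rw [mul_mul_mul_comm, mul_right_comm X₅] at heq
          exact mul_right_cancel heq
        rw [← mul_assoc, eq_mul_inv_iff_mul_eq, h7]
      rw [hli]
      exact congrArg Subtype.val this
  refine compl_of_gens hC hG hexp hq hp3 s l hs hl ?_ hsymm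
  intro k n hkn T₀ hlT hsT e he
  have hcomm : ∀ x, Commute e x → ∀ (h : x ∈ T₀), e * x * e⁻¹ ∈ T₀ := fun x hx h => by
    rw [hx.eq, mul_inv_cancel_right]; exact h
  have hconj : ∀ x c : E, ⁅e, x⁆ = c → c ∈ T₀ → x ∈ T₀ → e * x * e⁻¹ ∈ T₀ := fun x c h1 h2 h3 => by
    rw [show e * x * e⁻¹ = ⁅e, x⁆ * x by rw [commutatorElement_def, inv_mul_cancel_right], h1]
    exact mul_mem h2 h3
  refine ⟨fun a b hab => ?_, fun a => ?_⟩
  · by_cases hn : n ≠ a ∧ n ≠ b
    · exact hcomm _ (CL.tv_sh hC hG hkn.ne hn.1 hn.2 1 1 _ _ he (hs a b hab.ne)) (hsT a b hab.ne)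
    -- normalise to the pair `(n, b')`
    obtain ⟨b', hb', hsb⟩ : ∃ b', b' ≠ n ∧ s a b = s n b' := by
      rcases eq_or_ne n a with rfl | hna
      · exact ⟨b, hab.ne', rfl⟩
      · have hnb : n = b := by by_contra h; exact hn ⟨hna, h⟩
        exact ⟨a, hna.symm, by rw [hnb, hsymm a b hab.ne]⟩
    rw [hsb]
    rcases eq_or_ne b' k with rfl | hbk
    · -- the opposite short root
      rw [← hsymm b' n hkn.ne]
      have hve : ⁅e, L (sE (lgM n 1))⁆ = s b' n * l b' := by
        rw [← hv b' n hkn]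
        exact lift_comm_eq hc (by rw [he, hL]) rfl
      have hel : Commute e (l b') := CL.tv_lg hC hG hkn.ne hkn.ne' 1 1 _ _ he (hl b')
      have hsl : Commute (s b' n) (l b') := CL.siegel hC hG _ _ _ _ (hs b' n hkn.ne) (hl b')
      set y := L (sE (lgM n (1 : F)))
      set w := s b' n * l b'
      rcases hp3 with rfl | rfl
      · have he2 : ∀ x, Commute x (e ^ 2) := fun x => Subgroup.mem_center_iff.1 (hC.cen (show τ (e ^ 2) = 1 by
          rw [map_pow, he, sq, tv_eq hkn.ne, ← map_mul]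
          rw [show Matrix.SpecialLinearGroup.transvection hkn.ne (1 : F) *
            Matrix.SpecialLinearGroup.transvection hkn.ne (1 : F) = 1 from ?_, map_one]
          apply Subtype.ext
          show Matrix.transvection b' n (1 : F) * Matrix.transvection b' n (1 : F) = 1
          rw [Matrix.transvection_mul_transvection_same b' n hkn.ne,
            show (1 : F) + 1 = 0 by have := CharP.cast_eq_zero F 2; push_cast at this; linear_combination this,
            Matrix.transvection_zero])) x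
        have hw2 : w ^ 2 = 1 := pow_eq_one_of_siegel hC hG hexp hq (Or.inl rfl) (shM b' n 1 + lgM b' 1) w
          (by rw [map_mul, hs b' n hkn.ne, hl, sE_add])
        have hw : w⁻¹ = w := inv_eq_of_mul_eq_one_right (by rw [← sq, hw2])
        have hew : e * w * e⁻¹ = w := by
          conv_rhs => rw [← hw, ← hve]
          rw [← hve, commutatorElement_def]
          calc e * (e * y * e⁻¹ * y⁻¹) * e⁻¹ = (e ^ 2 * y) * (e⁻¹ * y⁻¹ * e⁻¹) := by rw [sq]; group
            _ = (y * e ^ 2) * (e⁻¹ * y⁻¹ * e⁻¹) := by rw [(he2 y).eq]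
            _ = _ := by rw [sq]; group
        have hes : Commute e (s b' n) := by
          have h1 : Commute e w := mul_inv_eq_iff_eq_mul.1 hew
          have h2 := h1.mul_right hel.inv_right
          simp only [w, mul_inv_cancel_right] at h2
          exact h2
        exact hcomm _ hes (hsT b' n hkn.ne)
      · -- a torus element inverting the short root
        obtain ⟨h, hh⟩ := hC.surj (dgS (Pi.mulSingle b' (-1 : Fˣ)) : Gp)
        have hhl : Commute (l b') h := by
          refine Free.commute_of_pGroup hC.cen hC.pgrp ?_ (b := 2) ?_ (by norm_num)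
          · rw [hl, hh]
            refine (mul_inv_eq_iff_eq_mul.1 ?_).symm
            rw [dgS_lg]
            congr 2
            simp
          · have h2 := dgS_pow_eq_one (F := F) (Pi.mulSingle b' (-1 : Fˣ))
            rw [hq] at h2
            rw [hh]
            exact h2
        have hhs : h * s b' n * h⁻¹ = (s b' n)⁻¹ := by
          have hmn : mid b' n ≠ b' := (hmid b' n).1
          set k' := mid b' n
          set u := L (sE (shM k' n (1 : F)))
          have hsP : s b' n = ⁅L (tv b' k' (1 : F)), u⁆ := rfl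
          rw [hsP, conjugate_commutatorElement]
          set c := L (tv b' k' (1 : F))
          have hcs : τ ⁅c, u⁆ = sE (shM b' n 1) := hsP ▸ hs b' n hkn.ne
          have hcc2 : Commute c ⁅c, u⁆ := CL.tv_sh hC hG (hmid b' n).1.symm (hmid b' n).1 (hmid b' n).2 1 1
            _ _ (hL _) hcs
          rw [lift_comm_eq hc (x := c⁻¹) (y := u) ?_ ?_]
          · rw [show ⁅c⁻¹, u⁆ = c⁻¹ * ⁅c, u⁆⁻¹ * c by simp only [commutatorElement_def]; group,
              hcc2.inv_left.inv_right.eq, inv_mul_cancel_right]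
          · rw [map_mul, map_mul, map_inv, map_inv, hh, hL, dgS_tv _ hmn.symm, tv_eq hmn.symm, tv_eq hmn.symm,
              ← map_inv, Matrix.SpecialLinearGroup.transvection_inv]
            congr 2
            simp [Pi.mulSingle_apply, hmn]
          · rw [map_mul, map_mul, map_inv, hh, hL, dgS_sh]
            congr 2
            simp [Pi.mulSingle_apply, hmn, hkn.ne']
        have hτw : h * w * h⁻¹ = ⁅e⁻¹, y⁆ := by
          rw [← hve, conjugate_commutatorElement]
          refine lift_comm_eq hc ?_ ?_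
          · rw [map_mul, map_mul, map_inv, map_inv, hh, he, dgS_tv _ hkn.ne, tv_eq hkn.ne, tv_eq hkn.ne,
              ← map_inv, Matrix.SpecialLinearGroup.transvection_inv]
            congr 2
            simp [Pi.mulSingle_apply, hkn.ne']
          · rw [map_mul, map_mul, map_inv, hh, hL, dgS_lg]
            congr 2
            simp [Pi.mulSingle_apply, hkn.ne']
        have hinv : ⁅e⁻¹, y⁆ = e⁻¹ * w⁻¹ * e := by
          rw [← hve]; simp only [commutatorElement_def]; group
        have h1 : h * w * h⁻¹ = (s b' n)⁻¹ * l b' := by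
          rw [show h * w * h⁻¹ = (h * s b' n * h⁻¹) * (h * l b' * h⁻¹) by simp only [w]; group, hhs,
            ← hhl.eq, mul_inv_cancel_right]
        rw [h1, hinv] at hτw
        -- `e⁻¹ s⁻¹ e = l² s⁻¹`
        have h2 : e⁻¹ * (s b' n)⁻¹ * e = (s b' n)⁻¹ * (l b' * l b') := by
          have : e⁻¹ * w⁻¹ * e = e⁻¹ * (s b' n)⁻¹ * e * (l b')⁻¹ := by
            rw [show w⁻¹ = (s b' n)⁻¹ * (l b')⁻¹ by simp only [w]; rw [hsl.eq, mul_inv_rev]]
            calc e⁻¹ * ((s b' n)⁻¹ * (l b')⁻¹) * e = e⁻¹ * (s b' n)⁻¹ * ((l b')⁻¹ * e) := by group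
              _ = _ := by rw [← hel.inv_right.eq]; group
          rw [this] at hτw
          calc e⁻¹ * (s b' n)⁻¹ * e = e⁻¹ * (s b' n)⁻¹ * e * (l b')⁻¹ * l b' := by group
            _ = (s b' n)⁻¹ * l b' * l b' := by rw [← hτw]
            _ = _ := mul_assoc _ _ _
        have h3 : e * s b' n * e⁻¹ = (l b' * l b') * s b' n := by
          have h4 : e * ((s b' n)⁻¹ * (l b' * l b')) * e⁻¹ = (s b' n)⁻¹ := by rw [← h2]; group
          have h5 : e * (l b' * l b') * e⁻¹ = l b' * l b' := by
            rw [(hel.mul_right hel).eq, mul_inv_cancel_right]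
          calc e * s b' n * e⁻¹ = e * (l b' * l b') * e⁻¹ * (e * ((s b' n)⁻¹ * (l b' * l b')) * e⁻¹)⁻¹ := by
                group
            _ = _ := by rw [h4, h5, inv_inv]
        rw [h3]
        exact mul_mem (mul_mem (hlT _) (hlT _)) (hsT b' n hkn.ne)
    · -- the sum is a short root
      refine hconj _ (s k b') ?_ (hsT k b' hbk.symm) (hsT n b' hb'.symm)
      rw [lift_comm_eq hc (x := L (tv k n (1 : F))) (y := L (sE (shM n b' 1))) (by rw [he, hL])
        (by rw [hs n b' hb'.symm, hL])]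
      exact hP k n b' hbk.symm hkn.ne hb'.symm
  · rcases eq_or_ne n a with rfl | hna
    · refine hconj _ (v k n) ?_ ?_ (hlT n)
      · exact lift_comm_eq hc (by rw [he, hL]) (by rw [hl, hL])
      · rw [hv k n hkn]; exact mul_mem (hsT k n hkn.ne) (hlT k)
    · exact hcomm _ (CL.tv_lg hC hG hkn.ne hna 1 1 _ _ he (hl a)) (hlT a)

include hC hG in
/-- The case `m = 2`, `q = 3`. -/
theorem exists_compl_two (hexp : ∀ z, τ z = 1 → z ^ p = 1) (hq : Fintype.card F = p)
    (hp3 : p = 3) (hm : m = 2) : ∃ T₀ : Subgroup E, Compl τ T₀ := by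
  subst hm hp3
  obtain ⟨a, ha⟩ := hC.surj (tv 0 1 (1 : F))
  obtain ⟨y, hy⟩ := hC.surj (sE (lgM 1 (1 : F)))
  set v := ⁅a, y⁆ with hvdef
  have hτv : τ v = sE (shM 0 1 1 + lgM 0 1) := by
    rw [hvdef, map_commutatorElement, ha, hy, commutatorElement_def, tv_lg_move (by decide), sE_inv, sE_add,
      one_mul, one_mul]
    congr 1; abel
  have h3 : (3 : F) = 0 := by have := CharP.cast_eq_zero F 3; exact_mod_cast this
  have hτd : τ ⁅a, v⁆ = sE (lgM 0 (-1)) := by
    rw [map_commutatorElement, ha, hτv, ← sE_add, commutatorElement_def,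
      show tv 0 1 (1 : F) * (sE (shM 0 1 1) * sE (lgM 0 1)) * (tv 0 1 (1 : F))⁻¹ =
        (tv 0 1 (1 : F) * sE (shM 0 1 1) * (tv 0 1 (1 : F))⁻¹) *
          (tv 0 1 (1 : F) * sE (lgM 0 1) * (tv 0 1 (1 : F))⁻¹) by group,
      tv_sh_self (by decide), tv_lg_fix (by decide) (by decide), sE_add, sE_add, sE_inv, sE_add]
    congr 1
    rw [show (2 : F) * 1 * 1 = -1 by linear_combination h3]
    abel
  set l0 := (⁅a, v⁆)⁻¹ with hl0
  have hτl0 : τ l0 = sE (lgM 0 1) := by
    rw [hl0, map_inv, hτd, sE_inv]; congr 1; apply Subtype.ext; simp [lgM_val, ← Matrix.single_neg]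
  set s01 := v * l0⁻¹ with hs01
  have hτs : τ s01 = sE (shM 0 1 1) := by
    rw [hs01, map_mul, map_inv, hτv, hτl0, sE_inv, sE_add]; congr 1; abel
  refine compl_of_gens hC hG hexp hq (Or.inr rfl) (fun _ _ => s01) ![l0, y] ?_ ?_ ?_ (fun _ _ _ => rfl)
  · intro i j hij
    fin_cases i <;> fin_cases j <;> first
      | exact absurd rfl hij
      | exact hτs
      | (rw [shM_comm]; exact hτs)
  · intro i
    fin_cases i
    · exact hτl0
    · exact hy
  · intro i j hij T₀ hlT hsT e he
    obtain rfl : i = 0 := by omega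
    obtain rfl : j = 1 := by omega
    have h0 : l0 ∈ T₀ := hlT 0
    have h1 : y ∈ T₀ := hlT 1
    have hs' : s01 ∈ T₀ := hsT 0 1 (by decide)
    have hvT : v ∈ T₀ := by
      rw [show v = s01 * l0 by rw [hs01, inv_mul_cancel_right]]; exact mul_mem hs' h0
    have hel : Commute a l0 := CL.tv_lg hC hG (by decide) (by decide) 1 1 _ _ ha hτl0
    have hsame : ∀ x : E, e * x * e⁻¹ = a * x * a⁻¹ := fun x => by
      have hz : τ (a⁻¹ * e) = 1 := by rw [map_mul, map_inv, ha, he, inv_mul_cancel]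
      have hcz := Subgroup.mem_center_iff.1 (hC.cen hz) x
      calc e * x * e⁻¹ = a * ((a⁻¹ * e) * x) * e⁻¹ := by group
        _ = a * (x * (a⁻¹ * e)) * e⁻¹ := by rw [hcz]
        _ = _ := by group
    refine ⟨fun b c hbc => ?_, fun b => ?_⟩
    · rw [hsame]
      show a * s01 * a⁻¹ ∈ T₀
      rw [hs01, show a * (v * l0⁻¹) * a⁻¹ = ⁅a, v⁆ * v * (a * l0⁻¹ * a⁻¹) by
        simp only [commutatorElement_def]; group, hel.inv_right.eq, mul_inv_cancel_right]
      refine mul_mem (mul_mem ?_ hvT) (inv_mem h0)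
      rw [show ⁅a, v⁆ = l0⁻¹ by rw [hl0, inv_inv]]
      exact inv_mem h0
    · rw [hsame]
      fin_cases b
      · show a * l0 * a⁻¹ ∈ T₀
        rw [hel.eq, mul_inv_cancel_right]; exact h0
      · show a * y * a⁻¹ ∈ T₀
        rw [show a * y * a⁻¹ = v * y by rw [hvdef, commutatorElement_def, inv_mul_cancel_right]]
        exact mul_mem hvT h1

end Cfsg.Agent.CentralExt.SpMult
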