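import Cfsg.Agent.CentralExt.SpMult.Levi
import Cfsg.Agent.CentralExt.SpMult.Siegel
import Cfsg.Agent.CentralExt.SpCross
import Cfsg.Agent.FusionPSL.Upper

/-!
# The Schur multiplier of `Sp_{2m}(q)` is trivial outside `(m, q) = (2, 2), (3, 2)`
-/

set_option autoImplicit false
set_option linter.unusedSectionVars false

namespace Cfsg.Agent.CentralExt.SpMult

open Cfsg.Agent.CentralExt
open scoped commutatorElement MatrixGroups Pointwise

universe u v

variable {F : Type u} [Field F] {m : ℕ}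

local notation "Gp" => Matrix.symplecticGroup (Fin m) F

/-- An element of the Siegel radical in the Levi subgroup is trivial. -/
theorem eq_zero_of_sE_eq_lvS {M : Sym m F} {g : SL(m, F)} (h : sE M = lvS m F g) : M = 0 := by
  have h1 := congrArg (fun x : Gp => (x : Matrix (Fin m ⊕ Fin m) (Fin m ⊕ Fin m) F).toBlocks₁₂) h
  simp only [sE_val, lvS_val, Matrix.toBlocks_fromBlocks₁₂] at h1
  exact Subtype.ext h1

variable {E : Type v} [Group E] [Finite E] {p : ℕ} [hp : Fact p.Prime] [CharP F p] [Fintype F]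
  {τ : E →* Matrix.symplecticGroup (Fin m) F} (hC : Cover p τ) (hG : Good m (Fintype.card F))

include hC hG in
theorem exists_compl (hexp : ∀ z, τ z = 1 → z ^ p = 1) : ∃ T₀ : Subgroup E, Compl τ T₀ := by
  by_cases h4 : 4 ≤ Fintype.card F
  · exact exists_compl_of_four_le hC hG h4
  obtain ⟨f, -, hf⟩ := FiniteField.card F p
  have hf1 : (f : ℕ) = 1 := by
    by_contra hne
    have h2 : 2 ≤ (f : ℕ) := by have := f.pos; omega
    have h3 : p ^ 2 ≤ Fintype.card F := hf ▸ Nat.pow_le_pow_right hp.out.pos h2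
    have := hp.out.two_le
    nlinarith
  rw [hf1, pow_one] at hf
  have hp3 : p = 2 ∨ p = 3 := by have := hp.out.two_le; omega
  rcases Nat.lt_or_ge m 3 with hm | hm
  · have hm2 : m = 2 := by have := hG.two_le; omega
    refine exists_compl_two hC hG hexp hf ?_ hm2
    have := hG.two hm2; omega
  · exact exists_compl_of_prime hC hG hexp hf hp3 hm

include hC hG in
/-- A section over the upper unitriangular Levi elements, normalising `T₀`. -/
theorem exists_upper {T₀ : Subgroup E} (hT : Compl τ T₀) :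
    ∃ T₁ : Subgroup E, (∀ y ∈ T₁, τ y = 1 → y = 1) ∧ (∀ y ∈ T₁, ∃ g, τ y = lvS m F g) ∧
      T₁ ≤ Subgroup.normalizer (T₀ : Set E) ∧
      Nat.card T₁ = Fintype.card F ^ (m * (m - 1) / 2) := by
  classical
  -- lifts of upper transvections normalise `T₀`
  have hnorm : ∀ i j : Fin m, i < j → ∀ (t : F) (e : E), τ e = tv i j t →
      e ∈ Subgroup.normalizer (T₀ : Set E) := by
    intro i j hij t e he
    rw [Subgroup.mem_normalizer_iff_map_conj_eq]
    refine Subgroup.eq_of_le_of_card_ge ?_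
      (le_of_eq (Subgroup.card_map_of_injective (MulAut.conj e).injective).symm)
    rintro _ ⟨x, hx, rfl⟩
    exact hT.stable i j hij t e he x hx
  rcases Nat.lt_or_ge m 3 with hm | hm
  · obtain rfl : m = 2 := by have := hG.two_le; omega
    obtain ⟨w, hw⟩ := hC.surj (flip (1 : Fin 2) : Matrix.symplecticGroup (Fin 2) F)
    -- the root subgroup inside `T₀`
    let X : Subgroup E := T₀ ⊓ ((Subgroup.closure (Set.range fun t : F => sE (shM (0 : Fin 2) 1 t))).comap τ)
    have hXmem : ∀ x ∈ X, ∃ t : F, τ x = sE (shM 0 1 t) := by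
      intro x hx
      have h : τ x ∈ Subgroup.closure (Set.range fun t : F => sE (shM (0 : Fin 2) 1 t)) := hx.2
      generalize τ x = g at h ⊢
      induction h using Subgroup.closure_induction with
      | mem g hg => obtain ⟨t, rfl⟩ := hg; exact ⟨t, rfl⟩
      | one => exact ⟨0, by rw [show shM (0 : Fin 2) 1 (0 : F) = 0 from Subtype.ext (by simp [shM_val]), sE_zero]⟩
      | mul a b _ _ ha hb =>
        obtain ⟨t, rfl⟩ := ha; obtain ⟨u, rfl⟩ := hb
        exact ⟨t + u, by rw [shM_add, sE_add]⟩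
      | inv a _ ha =>
        obtain ⟨t, rfl⟩ := ha
        refine ⟨-t, ?_⟩
        rw [sE_inv]; congr 1
        apply Subtype.ext
        simp [shM_val, ← Matrix.single_neg]; abel
    have hτY : ∀ y ∈ X.map (MulAut.conj w⁻¹).toMonoidHom, ∃ t : F, τ y = tv 0 1 t := by
      rintro _ ⟨x, hx, rfl⟩
      obtain ⟨t, ht⟩ := hXmem x hx
      refine ⟨t, ?_⟩
      show τ (w⁻¹ * x * (w⁻¹)⁻¹) = _
      rw [inv_inv, map_mul, map_mul, map_inv, hw, ht, ← flip_tv (show (0 : Fin 2) ≠ 1 by decide)]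
      group
    refine ⟨X.map (MulAut.conj w⁻¹).toMonoidHom, ?_, fun y hy => ?_, fun y hy => ?_, ?_⟩
    · rintro _ ⟨x, hx, rfl⟩ h1
      change τ (w⁻¹ * x * (w⁻¹)⁻¹) = 1 at h1
      rw [inv_inv, map_mul, map_mul, map_inv] at h1
      have h2 : τ x = τ w * ((τ w)⁻¹ * τ x * τ w) * (τ w)⁻¹ := by group
      rw [h1, mul_one, mul_inv_cancel] at h2
      rw [hT.bot x hx.1 h2, map_one]
    · obtain ⟨t, ht⟩ := hτY y hy
      exact ⟨_, ht.trans (tv_eq (by decide) t)⟩
    · obtain ⟨t, ht⟩ := hτY y hy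
      exact hnorm 0 1 (by decide) t y ht
    · rw [Subgroup.card_map_of_injective (MulAut.conj w⁻¹).injective, show 2 * (2 - 1) / 2 = 1 from rfl,
        pow_one, ← Nat.card_eq_fintype_card]
      choose t ht using hXmem
      refine Nat.card_eq_of_bijective (fun x : X => t x x.2) ⟨fun x y h => ?_, fun u => ?_⟩
      · have e : τ ((x : E)⁻¹ * y) = 1 := by
          rw [map_mul, map_inv, ht x x.2, ht y y.2, show t x x.2 = t y y.2 from h, inv_mul_cancel]
        exact Subtype.ext (inv_mul_eq_one.1 (hT.bot _ (mul_mem (inv_mem x.2.1) y.2.1) e))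
      · have hu : sE (shM (0 : Fin 2) 1 u) ∈ T₀.map τ := by
          rw [hT.image]; exact mem_range_sHom.2 ⟨_, rfl⟩
        obtain ⟨x, hx, hx'⟩ := hu
        have hxX : x ∈ X := ⟨hx, by show τ x ∈ Subgroup.closure (Set.range fun t : F => sE (shM (0 : Fin 2) 1 t)); rw [hx']; exact Subgroup.subset_closure ⟨u, rfl⟩⟩
        refine ⟨⟨x, hxX⟩, ?_⟩
        have h := (ht x hxX).symm.trans hx'
        have h2 := congrFun (congrFun (congrArg Subtype.val (sE_injective h)) 0) 1
        simpa [shM_val] using h2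
  · obtain ⟨Φ, hΦ⟩ := exists_levi_section hC hG hm
    have hinj : Function.Injective Φ := fun a b h => lvS_injective (by rw [← hΦ, ← hΦ, h])
    refine ⟨(Cfsg.Agent.FusionPSL.utri (K := F) (n := m)).map Φ, ?_, ?_, ?_, ?_⟩
    · rintro _ ⟨g, -, rfl⟩ h1
      rw [hΦ, ← map_one (lvS m F)] at h1
      rw [lvS_injective h1, map_one]
    · rintro _ ⟨g, -, rfl⟩
      exact ⟨g, hΦ g⟩
    · rw [Subgroup.map_le_iff_le_comap]
      refine (Cfsg.Agent.FusionPSL.utri_le_closure).trans ((Subgroup.closure_le _).2 ?_)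
      rintro _ ⟨i, j, hij, c, rfl⟩
      exact hnorm i j hij c _ (by rw [hΦ, tv_eq hij.ne]; rfl)
    · rw [Subgroup.card_map_of_injective hinj, Cfsg.Agent.FusionPSL.card_utri]

include hC hG in
/-- A lift of a Sylow `p`-subgroup. -/
theorem exists_sylow_lift (hexp : ∀ z, τ z = 1 → z ^ p = 1) :
    ∃ T : Subgroup E, (∀ x ∈ T, τ x = 1 → x = 1) ∧ ¬ p ∣ (T.map τ).index := by
  classical
  obtain ⟨T₀, hT⟩ := exists_compl hC hG hexp
  obtain ⟨T₁, hbot, hlev, hnorm, hcard⟩ := exists_upper hC hG hT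
  have hzero : ∀ x ∈ T₀, ∀ y ∈ T₁, τ (x * y) = 1 → x = 1 ∧ y = 1 := by
    intro x hx y hy h
    obtain ⟨g, hg⟩ := hlev y hy
    have hxS : τ x ∈ (sHom m F).range := hT.image ▸ Subgroup.mem_map_of_mem τ hx
    obtain ⟨M, hM⟩ := mem_range_sHom.1 hxS
    rw [map_mul, hM, hg] at h
    have h0 : M = 0 := eq_zero_of_sE_eq_lvS (g := g⁻¹) (by rw [map_inv]; exact eq_inv_of_mul_eq_one_left h)
    rw [h0, sE_zero] at hM
    have hx1 := hT.bot x hx hM
    refine ⟨hx1, hbot y hy ?_⟩
    rw [hg]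
    rw [h0, sE_zero, one_mul] at h
    exact h
  refine ⟨T₁ ⊔ T₀, ?_, ?_⟩
  · intro z hz h1
    rw [← SetLike.mem_coe, sup_comm, Subgroup.coe_mul_of_right_le_normalizer_left T₀ T₁ hnorm] at hz
    obtain ⟨x, hx, y, hy, rfl⟩ := hz
    obtain ⟨rfl, rfl⟩ := hzero x hx y hy h1
    exact mul_one 1
  · set T := T₁ ⊔ T₀ with hTdef
    have hsetT : (T : Set E) = (T₀ : Set E) * (T₁ : Set E) := by
      rw [hTdef, sup_comm, Subgroup.coe_mul_of_right_le_normalizer_left T₀ T₁ hnorm]
    let f : T₀ × T₁ → T.map τ := fun q => ⟨τ (q.1 * q.2), Subgroup.mem_map_of_mem τ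
      (show (q.1 : E) * q.2 ∈ (T : Set E) by rw [hsetT]; exact Set.mul_mem_mul q.1.2 q.2.2)⟩
    have hbij : Function.Bijective f := by
      constructor
      · rintro ⟨x, y⟩ ⟨x', y'⟩ h
        have h1 : τ ((x : E) * y) = τ ((x' : E) * y') := congrArg Subtype.val h
        have hconj : (y : E) * (y' : E)⁻¹ ∈ T₁ := mul_mem y.2 (inv_mem y'.2)
        have h2 : τ (((x' : E)⁻¹ * x) * ((y : E) * (y' : E)⁻¹)) = 1 := by
          rw [show ((x' : E)⁻¹ * x) * ((y : E) * (y' : E)⁻¹) = (x' : E)⁻¹ * ((x : E) * y) * (y' : E)⁻¹ by group,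
            map_mul, map_mul, h1, map_inv, map_inv, map_mul]
          group
        obtain ⟨e1, e2⟩ := hzero _ (mul_mem (inv_mem x'.2) x.2) _ hconj h2
        exact Prod.ext (Subtype.ext (inv_mul_eq_one.1 e1).symm) (Subtype.ext (mul_inv_eq_one.1 e2))
      · rintro ⟨_, z, hz, rfl⟩
        rw [hsetT] at hz
        obtain ⟨x, hx, y, hy, rfl⟩ := hz
        exact ⟨(⟨x, hx⟩, ⟨y, hy⟩), rfl⟩
    have hT0 : Nat.card T₀ = Fintype.card F ^ (m * (m + 1) / 2) := by
      have h1 : Nat.card T₀ = Nat.card (T₀.map τ) :=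
        Nat.card_eq_of_bijective (fun x : T₀ => (⟨τ x, Subgroup.mem_map_of_mem τ x.2⟩ : T₀.map τ))
          ⟨fun a b h => by
            have e : τ ((a : E)⁻¹ * b) = 1 := by
              rw [map_mul, map_inv, show τ (a : E) = τ b from congrArg Subtype.val h, inv_mul_cancel]
            exact Subtype.ext (inv_mul_eq_one.1 (hT.bot _ (mul_mem (inv_mem a.2) b.2) e)),
           fun y => by obtain ⟨z, hz, hz'⟩ := y.2; exact ⟨⟨z, hz⟩, Subtype.ext hz'⟩⟩
      rw [h1, hT.image, ← Nat.card_congr (MonoidHom.ofInjective (f := sHom m F) fun x y h =>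
        Multiplicative.toAdd.injective (sE_injective h)).toEquiv, Nat.card_congr Multiplicative.toAdd]
      exact Cfsg.Agent.SympSub.card_symm
    have hTcard : Nat.card (T.map τ) = Fintype.card F ^ (m ^ 2) := by
      rw [← Nat.card_eq_of_bijective f hbij, Nat.card_prod, hT0, hcard, ← pow_add]
      congr 1
      obtain ⟨k, rfl⟩ : ∃ k, m = k + 2 := ⟨m - 2, by have := hG.two_le; omega⟩
      have h1 : 2 ∣ (k + 2) * (k + 2 + 1) := (Nat.even_mul_succ_self _).two_dvd
      have h2 : 2 ∣ (k + 2) * (k + 2 - 1) := (Nat.even_mul_pred_self _).two_dvd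
      rw [← Nat.add_div_of_dvd_right h1, sq]
      have : (k + 2) * (k + 2 + 1) + (k + 2) * (k + 2 - 1) = (k + 2) * (k + 2) * 2 := by
        rw [← mul_add, mul_assoc]; congr 1; omega
      rw [this, Nat.mul_div_cancel _ two_pos]
    obtain ⟨f', hpp, hf'⟩ := FiniteField.card F p
    intro hd
    have hmul := (T.map τ).index_mul_card
    rw [hTcard, Cfsg.Agent.SympSub.card_symplecticGroup, Cfsg.Agent.SympSub.spOrder, mul_comm] at hmul
    have hidx : (T.map τ).index = ∏ i ∈ Finset.range m, (Fintype.card F ^ (2 * (i + 1)) - 1) :=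
      Nat.eq_of_mul_eq_mul_left (pow_pos Fintype.card_pos _) hmul
    rw [hidx] at hd
    obtain ⟨i, -, hi⟩ := (Prime.dvd_finsetProd_iff hp.out.prime _).1 hd
    have h1 : p ∣ Fintype.card F ^ (2 * (i + 1)) :=
      dvd_pow (hf' ▸ dvd_pow_self p f'.ne_zero) (by omega)
    have h2 : 1 ≤ Fintype.card F ^ (2 * (i + 1)) := Nat.one_le_pow _ _ Fintype.card_pos
    have h3 := Nat.dvd_sub h1 hi
    rw [Nat.sub_sub_self h2] at h3
    exact hp.out.not_dvd_one h3

/-- The `p`-part of the multiplier of `Sp_{2m}(q)`. -/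
theorem not_dvd_schurMult_char {F : Type u} [Field F] [Fintype F] {m : ℕ}
    (hG : Good m (Fintype.card F)) {p : ℕ} [hp : Fact p.Prime] [CharP F p] :
    ¬ p ∣ Nat.card (schurMult (Matrix.symplecticGroup (Fin m) F)) := by
  refine not_dvd_card_schurMult_of_forall p fun Δ _ _ τ hτ hk => ?_
  by_contra hne
  letI : CommGroup τ.ker :=
    { (inferInstance : Group τ.ker) with
      mul_comm := fun a b => Subtype.ext ((Subgroup.mem_center_iff.1 (hτ.2.1 b.2)) (a : Δ)) }
  let f : τ.ker →* τ.ker := powMonoidHom p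
  let K : Subgroup Δ := f.range.map τ.ker.subtype
  have hKτ : K ≤ τ.ker := Subgroup.map_subtype_le _
  haveI : K.Normal := ⟨fun n hn g => by
    rwa [Subgroup.mem_center_iff.1 (hτ.2.1 (hKτ hn)) g, mul_inv_cancel_right]⟩
  let θ : Δ ⧸ K →* Matrix.symplecticGroup (Fin m) F := QuotientGroup.lift K τ hKτ
  have hθ : θ.ker = τ.ker.map (QuotientGroup.mk' K) := QuotientGroup.ker_lift _ _ _
  have hexp : ∀ z, θ z = 1 → z ^ p = 1 := by
    intro z hz
    have hz' : z ∈ θ.ker := hz
    rw [hθ] at hz'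
    obtain ⟨y, hy, rfl⟩ := hz'
    rw [← map_pow]
    exact (QuotientGroup.eq_one_iff _).2 ⟨(⟨y, hy⟩ : τ.ker) ^ p, ⟨⟨y, hy⟩, rfl⟩, rfl⟩
  have hst : IsStemExtension θ := by
    refine ⟨QuotientGroup.lift_surjective_of_surjective _ _ hτ.1 _, ?_, ?_⟩
    · rw [hθ]
      rintro _ ⟨z, hz, rfl⟩
      exact mem_center_map (QuotientGroup.mk'_surjective K) (hτ.2.1 hz)
    · rw [hθ, ← map_commutator_top (QuotientGroup.mk' K) (QuotientGroup.mk'_surjective K)]
      exact Subgroup.map_mono hτ.2.2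
  have hpg : IsPGroup p θ.ker := fun z => ⟨1, Subtype.ext (by rw [pow_one]; exact hexp z z.2)⟩
  have hC : Cover p θ := ⟨hst.1, hst.2.1, hpg⟩
  obtain ⟨T, hbot, hidx⟩ := exists_sylow_lift hC hG hexp
  obtain ⟨hres, -⟩ := isStemExtension_restrict hst hpg (T.map θ) hidx
  set P := (T.map θ).comap θ
  have htop : T.subgroupOf P ⊔ (θ.subgroupComap (T.map θ)).ker = ⊤ := by
    rw [eq_top_iff]
    rintro x -
    obtain ⟨t, ht, htx⟩ := x.2
    have htP : t ∈ P := Subgroup.mem_map_of_mem θ ht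
    rw [show x = ⟨t, htP⟩ * (⟨t, htP⟩⁻¹ * x) by group]
    refine mul_mem (Subgroup.mem_sup_left (show t ∈ T from ht)) (Subgroup.mem_sup_right ?_)
    refine Subtype.ext ?_
    show θ (t⁻¹ * (x : Δ ⧸ K)) = 1
    rw [map_mul, map_inv, htx, inv_mul_cancel]
  have hT : T.subgroupOf P = ⊤ := eq_top_of_sup_ker hres htop
  have hθbot : θ.ker = ⊥ := by
    rw [Subgroup.eq_bot_iff_forall]
    intro z hz
    have hzP : z ∈ P := by rw [Subgroup.mem_comap, MonoidHom.mem_ker.1 hz]; exact one_mem _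
    have : (⟨z, hzP⟩ : P) ∈ T.subgroupOf P := hT ▸ Subgroup.mem_top _
    exact hbot z this hz
  -- the `p`-th power map is onto, hence the kernel is trivial
  have hsurj : Function.Surjective f := by
    intro y
    have hy : ((y : Δ) : Δ ⧸ K) ∈ θ.ker := by
      rw [hθ]; exact Subgroup.mem_map_of_mem _ y.2
    rw [hθbot, Subgroup.mem_bot, QuotientGroup.eq_one_iff] at hy
    obtain ⟨w, ⟨x, hx⟩, hw⟩ := hy
    exact ⟨x, hx.trans (Subtype.ext hw)⟩
  have hinj : Function.Injective f := (Finite.injective_iff_surjective.2 hsurj)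
  obtain ⟨k, hk'⟩ := hk.exists_card_eq
  rcases Nat.eq_zero_or_pos k with rfl | hkpos
  · exact hne (Subgroup.card_eq_one.1 (by rw [hk', pow_zero]))
  · obtain ⟨x, hx⟩ := exists_prime_orderOf_dvd_card' (G := τ.ker) p (by rw [hk']; exact dvd_pow_self p hkpos.ne')
    have hx1 : f x = f 1 := by
      rw [map_one]
      show x ^ p = 1
      rw [← hx]; exact pow_orderOf_eq_one x
    rw [hinj hx1, orderOf_one] at hx
    exact hp.out.one_lt.ne hx

/-- `Sp_{2m}(q)` has trivial multiplier. -/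
theorem multiplier_Sp {F : Type u} [Field F] [Fintype F] {m : ℕ} (hG : Good m (Fintype.card F)) :
    HasCyclicSchurMultiplier (Matrix.symplecticGroup (Fin m) F) 1 := by
  obtain ⟨p, hc⟩ := CharP.exists F
  haveI := hc
  obtain ⟨f, hpp, hf⟩ := FiniteField.card F p
  refine hasCyclicSchurMultiplier_one_of_not_dvd fun r hr => ?_
  haveI : Fact r.Prime := ⟨hr⟩
  by_cases hrq : r ∣ Fintype.card F
  · obtain rfl : r = p := (Nat.prime_dvd_prime_iff_eq hr hpp).1 (hr.dvd_of_dvd_pow (hf ▸ hrq))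
    exact not_dvd_schurMult_char hG
  · exact SpCross.not_dvd_schurMult_Sp r hrq m

/-- The multiplier of `PSp_{2m}(q)`. -/
theorem multiplier_PSp {F : Type u} [Field F] [Fintype F] {m : ℕ} (hG : Good m (Fintype.card F)) :
    HasCyclicSchurMultiplier (Cfsg.PSp m F) (Nat.gcd 2 (Fintype.card F - 1)) := by
  haveI : NeZero m := ⟨by have := hG.two_le; omega⟩
  set σ := QuotientGroup.mk' (Subgroup.center (Matrix.symplecticGroup (Fin m) F))
  have hker : σ.ker = Subgroup.center (Matrix.symplecticGroup (Fin m) F) := QuotientGroup.ker_mk' _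
  have hperf : commutator (Matrix.symplecticGroup (Fin m) F) = ⊤ := by
    refine Cfsg.Agent.Linear.Symp.commutator_eq_top ?_
    have h1 : 1 < Fintype.card F := Fintype.one_lt_card
    have := hG.two_le; have := hG.two
    omega
  have hst : IsStemExtension σ :=
    ⟨QuotientGroup.mk'_surjective _, hker.le, by rw [hperf]; exact le_top⟩
  have hcard := Cfsg.Agent.Linear.Symp.card_center (m := m) (F := F)
  haveI : IsCyclic (Subgroup.center (Matrix.symplecticGroup (Fin m) F)) := by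
    rcases (Nat.dvd_prime Nat.prime_two).1 (Nat.gcd_dvd_left 2 (Fintype.card F - 1)) with h | h
    · haveI := (Nat.card_eq_one_iff_unique.1 (hcard.trans h)).1
      exact isCyclic_of_subsingleton
    · exact isCyclic_of_prime_card (p := 2) (hcard.trans h)
  rw [← hcard]
  exact hasSchurMultiplier_of_universal hst (multiplier_Sp hG)
    ((MulEquiv.subgroupCongr hker).trans (zmodCyclicMulEquiv inferInstance).symm)

end Cfsg.Agent.CentralExt.SpMult
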