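import Cfsg.Prelude.Def_Classical
import Cfsg.Agent.Linear.Transvection

/-!
# Siegel and Levi elements of `Sp_{2m}`

The unipotent radical of the Siegel parabolic, the Levi subgroup and the partial flips, with their
conjugation formulas.
-/

set_option autoImplicit false
set_option linter.unusedSectionVars false
set_option linter.unusedSimpArgs false

namespace Cfsg.Agent.CentralExt.SpMult

open Matrix
open scoped MatrixGroups

variable {F : Type*} [Field F] {m : ℕ}

local notation "Gp" => Matrix.symplecticGroup (Fin m) F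
local notation "Mat" => Matrix (Fin m) (Fin m) F

/-- The symmetric matrices. -/
def Sym (m : ℕ) (F : Type*) [Field F] : AddSubgroup (Matrix (Fin m) (Fin m) F) where
  carrier := {M | Mᵀ = M}
  zero_mem' := Matrix.transpose_zero
  add_mem' {a b} ha hb := by simp only [Set.mem_ofPred_eq] at *; rw [transpose_add, ha, hb]
  neg_mem' {a} ha := by simp only [Set.mem_ofPred_eq] at *; rw [transpose_neg, ha]

theorem mem_Sym {M : Mat} : M ∈ Sym m F ↔ Mᵀ = M := Iff.rfl

/-- An element of the unipotent radical of the Siegel parabolic. -/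
def sE (M : Sym m F) : Gp :=
  ⟨fromBlocks 1 (M : Mat) 0 1, by
    rw [SymplecticGroup.mem_iff, J, fromBlocks_multiply, fromBlocks_transpose, fromBlocks_multiply]
    simp [mem_Sym.1 M.2]⟩

theorem sE_val (M : Sym m F) :
    ((sE M : Gp) : Matrix (Fin m ⊕ Fin m) (Fin m ⊕ Fin m) F) = fromBlocks 1 (M : Mat) 0 1 := rfl

theorem sE_add (M N : Sym m F) : sE M * sE N = sE (M + N) := by
  apply Subtype.ext
  rw [Submonoid.coe_mul, sE_val, sE_val, sE_val, fromBlocks_multiply]
  simp [add_comm]

theorem sE_zero : sE (0 : Sym m F) = 1 := mul_eq_left.1 (by rw [sE_add, add_zero] : sE 0 * sE 0 = sE (0 : Sym m F))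

theorem sE_inv (M : Sym m F) : (sE M)⁻¹ = sE (-M) :=
  inv_eq_of_mul_eq_one_right (by rw [sE_add, add_neg_cancel, sE_zero])

theorem sE_injective : Function.Injective (sE (m := m) (F := F)) := by
  intro M N h
  have h1 := congrArg (fun g : Gp => (g : Matrix (Fin m ⊕ Fin m) (Fin m ⊕ Fin m) F).toBlocks₁₂) h
  simp only [sE_val, toBlocks_fromBlocks₁₂] at h1
  exact Subtype.ext h1

theorem sE_commute (M N : Sym m F) : Commute (sE M) (sE N) := by
  rw [commute_iff_eq, sE_add, sE_add, add_comm]

theorem sE_pow (M : Sym m F) (k : ℕ) : sE M ^ k = sE (k • M) := by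
  induction k with
  | zero => rw [pow_zero, zero_nsmul, sE_zero]
  | succ k ih => rw [pow_succ, ih, sE_add, succ_nsmul]

/-- A Levi element. -/
def blk (g g' : Mat) (h : g * g'ᵀ = 1) : Gp :=
  ⟨fromBlocks g 0 0 g', by
    have h' : g' * gᵀ = 1 := by
      have := congrArg transpose h
      rwa [transpose_mul, transpose_transpose, transpose_one] at this
    rw [SymplecticGroup.mem_iff, J, fromBlocks_multiply, fromBlocks_transpose, fromBlocks_multiply]
    simp [h, h']⟩

theorem blk_val (g g' : Mat) (h : g * g'ᵀ = 1) :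
    ((blk g g' h : Gp) : Matrix (Fin m ⊕ Fin m) (Fin m ⊕ Fin m) F) = fromBlocks g 0 0 g' := rfl

theorem conj_blk (g g' : Mat) (h : g * g'ᵀ = 1) (M M' : Sym m F)
    (e : (M' : Mat) = g * M * gᵀ) : blk g g' h * sE M * (blk g g' h)⁻¹ = sE M' := by
  rw [mul_inv_eq_iff_eq_mul]
  apply Subtype.ext
  rw [Submonoid.coe_mul, Submonoid.coe_mul, blk_val, sE_val, sE_val, fromBlocks_multiply,
    fromBlocks_multiply, e]
  have h' : gᵀ * g' = 1 := by
    have := congrArg transpose (mul_eq_one_comm.1 h)
    rwa [transpose_mul, transpose_transpose, transpose_one] at this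
  simp [Matrix.mul_assoc, h']

/-- The Levi subgroup `SL_m`. -/
def lvS (m : ℕ) (F : Type*) [Field F] : SL(m, F) →* Matrix.symplecticGroup (Fin m) F :=
  MonoidHom.mk' (fun g => blk (g : Matrix (Fin m) (Fin m) F) ((g⁻¹ : SL(m, F)) : Matrix (Fin m) (Fin m) F)ᵀ
    (by rw [transpose_transpose]; exact congrArg Subtype.val (mul_inv_cancel g))) fun g h => by
      apply Subtype.ext
      rw [Submonoid.coe_mul, blk_val, blk_val, blk_val, fromBlocks_multiply, _root_.mul_inv_rev]
      simp [Matrix.SpecialLinearGroup.coe_mul, transpose_mul]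

theorem lvS_val (g : SL(m, F)) :
    ((lvS m F g : Gp) : Matrix (Fin m ⊕ Fin m) (Fin m ⊕ Fin m) F) =
      fromBlocks (g : Mat) 0 0 ((g⁻¹ : SL(m, F)) : Mat)ᵀ := rfl

theorem lvS_injective : Function.Injective (lvS m F) := by
  intro g h e
  apply Subtype.ext
  have h1 := congrArg (fun x : Gp => (x : Matrix (Fin m ⊕ Fin m) (Fin m ⊕ Fin m) F).toBlocks₁₁) e
  simpa only [lvS_val, toBlocks_fromBlocks₁₁] using h1

/-- The Levi transvection. -/
def tv (i j : Fin m) (t : F) : Gp :=
  if h : i ≠ j then lvS m F (SpecialLinearGroup.transvection h t) else 1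

theorem tv_val {i j : Fin m} (hij : i ≠ j) (t : F) :
    ((tv i j t : Gp) : Matrix (Fin m ⊕ Fin m) (Fin m ⊕ Fin m) F) =
      fromBlocks (1 + single i j t) 0 0 (1 - single j i t) := by
  rw [tv, dif_pos hij, lvS_val, SpecialLinearGroup.transvection_inv, SpecialLinearGroup.transvection_coe,
    SpecialLinearGroup.transvection_coe]
  simp [transpose_single, ← single_neg, sub_eq_add_neg]

theorem tv_eq {i j : Fin m} (hij : i ≠ j) (t : F) :
    tv i j t = lvS m F (SpecialLinearGroup.transvection hij t) := dif_pos hij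

/-- A diagonal Levi element. -/
def dgS (d : Fin m → Fˣ) : Gp :=
  blk (diagonal fun i => (d i : F)) (diagonal fun i => ((d i)⁻¹ : Fˣ)) (by
    rw [diagonal_transpose, diagonal_mul_diagonal]; simp)

theorem dgS_pow_eq_one [Fintype F] (d : Fin m → Fˣ) : dgS d ^ (Fintype.card F - 1) = 1 := by
  have hmul : ∀ k : ℕ, dgS d ^ k = dgS (d ^ k) := by
    intro k
    induction k with
    | zero =>
      apply Subtype.ext
      simp [dgS, blk_val]
    | succ k ih =>
      rw [pow_succ, ih]
      apply Subtype.ext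
      simp [dgS, blk_val, fromBlocks_multiply, diagonal_mul_diagonal, pow_succ, mul_comm]
  rw [hmul]
  have hd : d ^ (Fintype.card F - 1) = 1 := funext fun i =>
    Units.ext (by simpa using FiniteField.pow_card_sub_one_eq_one _ (d i).ne_zero)
  rw [hd]
  apply Subtype.ext
  simp [dgS, blk_val]

/-! ## Elementary symmetric matrices -/

/-- The matrix of a short root. -/
def shM (i j : Fin m) (t : F) : Sym m F :=
  ⟨single i j t + single j i t, by rw [mem_Sym, transpose_add, transpose_single, transpose_single, add_comm]⟩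

/-- The matrix of a long root. -/
def lgM (i : Fin m) (t : F) : Sym m F := ⟨single i i t, by rw [mem_Sym, transpose_single]⟩

theorem shM_val (i j : Fin m) (t : F) : ((shM i j t : Sym m F) : Mat) = single i j t + single j i t := rfl

theorem lgM_val (i : Fin m) (t : F) : ((lgM i t : Sym m F) : Mat) = single i i t := rfl

theorem shM_comm (i j : Fin m) (t : F) : shM i j t = shM j i t := Subtype.ext (add_comm _ _)

theorem shM_add (i j : Fin m) (t u : F) : shM i j (t + u) = shM i j t + shM i j u := by
  apply Subtype.ext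
  simp [shM_val, single_add]; abel

theorem lgM_add (i : Fin m) (t u : F) : lgM i (t + u) = lgM i t + lgM i u := by
  apply Subtype.ext
  simp [lgM_val, single_add]

/-- The symmetric matrices are generated by the elementary ones. -/
theorem sym_induction {P : Sym m F → Prop} (h0 : P 0) (hl : ∀ i t, P (lgM i t))
    (hs : ∀ i j, i < j → ∀ t, P (shM i j t)) (hadd : ∀ M N, P M → P N → P (M + N)) (M : Sym m F) :
    P M := by
  classical
  have e : M = (∑ i, lgM i ((M : Mat) i i)) +
      ∑ p ∈ Finset.univ.filter (fun p : Fin m × Fin m => p.1 < p.2), shM p.1 p.2 ((M : Mat) p.1 p.2) := by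
    apply Subtype.ext
    ext a b
    simp only [AddSubgroup.coe_add, AddSubgroup.val_finsetSum, lgM_val, shM_val, Matrix.add_apply,
      Matrix.sum_apply, Matrix.single_apply]
    have hsym : (M : Mat) b a = (M : Mat) a b := congrFun (congrFun (mem_Sym.1 M.2) a) b
    rcases lt_trichotomy a b with h | rfl | h
    · rw [Finset.sum_eq_zero (fun i _ => if_neg (fun e => h.ne (e.1.symm.trans e.2))),
        Finset.sum_eq_single (a, b)]
      · simp [h.ne, h.ne']
      · intro p hp hpne
        have hlt := (Finset.mem_filter.1 hp).2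
        rw [if_neg (fun e => hpne (Prod.ext e.1 e.2)), if_neg (fun e => ?_), add_zero]
        rw [e.1, e.2] at hlt
        exact lt_asymm h hlt
      · simp [h]
    · rw [Finset.sum_eq_single a (fun i _ hi => if_neg (fun e => hi e.1)) (by simp),
        Finset.sum_eq_zero (fun p hp => ?_)]
      · simp
      · have hlt := (Finset.mem_filter.1 hp).2
        rw [if_neg (fun e => hlt.ne (e.1.trans e.2.symm)), if_neg (fun e => hlt.ne (e.2.trans e.1.symm)), add_zero]
    · rw [Finset.sum_eq_zero (fun i _ => if_neg (fun e => h.ne' (e.1.symm.trans e.2))),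
        Finset.sum_eq_single (b, a)]
      · simp [h.ne, h.ne', hsym]
      · intro p hp hpne
        have hlt := (Finset.mem_filter.1 hp).2
        rw [if_neg (fun e => ?_), if_neg (fun e => hpne (Prod.ext e.2 e.1)), add_zero]
        rw [e.1, e.2] at hlt
        exact lt_asymm h hlt
      · simp [h]
  rw [e]
  refine hadd _ _ (Finset.sum_induction _ P hadd h0 fun i _ => hl _ _)
    (Finset.sum_induction _ P hadd h0 fun p hp => hs _ _ (Finset.mem_filter.1 hp).2 _)

/-! ## Conjugation by a Levi transvection -/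

theorem conj_tv {i k : Fin m} (hik : i ≠ k) (t : F) (M M' : Sym m F)
    (e : (M' : Mat) = (1 + single i k t) * M * (1 + single k i t)) :
    tv i k t * sE M * (tv i k t)⁻¹ = sE M' := by
  rw [tv_eq hik]
  exact conj_blk (SpecialLinearGroup.transvection hik t : SL(m, F)).1
    ((SpecialLinearGroup.transvection hik t : SL(m, F))⁻¹).1ᵀ
    (by rw [transpose_transpose]; exact congrArg Subtype.val (mul_inv_cancel (SpecialLinearGroup.transvection hik t : SL(m, F)))) M M'
    (by rw [e, SpecialLinearGroup.transvection_coe, transpose_add, transpose_one, transpose_single])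

theorem tv_sh_fix {i k a b : Fin m} (hik : i ≠ k) (hka : k ≠ a) (hkb : k ≠ b) (t u : F) :
    tv i k t * sE (shM a b u) * (tv i k t)⁻¹ = sE (shM a b u) := by
  refine conj_tv hik t _ _ ?_
  simp [shM_val, mul_add, add_mul, single_mul_single_of_ne _ _ _ _ hka, single_mul_single_of_ne _ _ _ _ hkb,
    single_mul_single_of_ne _ _ _ _ hka.symm, single_mul_single_of_ne _ _ _ _ hkb.symm]

theorem tv_sh_move {i k j : Fin m} (hik : i ≠ k) (hkj : k ≠ j) (t u : F) :
    tv i k t * sE (shM k j u) * (tv i k t)⁻¹ = sE (shM k j u + shM i j (t * u)) := by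
  refine conj_tv hik t _ _ ?_
  simp [shM_val, mul_add, add_mul, single_mul_single_same, single_mul_single_of_ne _ _ _ _ hkj,
    single_mul_single_of_ne _ _ _ _ hkj.symm, mul_comm u t]
  abel

theorem tv_sh_self {i k : Fin m} (hik : i ≠ k) (t u : F) :
    tv i k t * sE (shM i k u) * (tv i k t)⁻¹ = sE (shM i k u + lgM i (2 * t * u)) := by
  refine conj_tv hik t _ _ ?_
  simp [shM_val, lgM_val, mul_add, add_mul, single_mul_single_same,
    single_mul_single_of_ne _ _ _ _ hik, single_mul_single_of_ne _ _ _ _ hik.symm, mul_comm u t]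
  rw [two_mul, add_mul, single_add]
  abel

theorem tv_lg_fix {i k a : Fin m} (hik : i ≠ k) (hka : k ≠ a) (t u : F) :
    tv i k t * sE (lgM a u) * (tv i k t)⁻¹ = sE (lgM a u) := by
  refine conj_tv hik t _ _ ?_
  simp [lgM_val, mul_add, add_mul, single_mul_single_of_ne _ _ _ _ hka, single_mul_single_of_ne _ _ _ _ hka.symm]

theorem tv_lg_move {i k : Fin m} (hik : i ≠ k) (t u : F) :
    tv i k t * sE (lgM k u) * (tv i k t)⁻¹ = sE (lgM k u + shM i k (t * u) + lgM i (t * t * u)) := by
  refine conj_tv hik t _ _ ?_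
  simp [shM_val, lgM_val, mul_add, add_mul, single_mul_single_same, mul_comm u t, mul_assoc]
  abel

theorem dgS_conj (d : Fin m → Fˣ) (M M' : Sym m F)
    (e : ∀ a b, (M' : Mat) a b = d a * (M : Mat) a b * d b) :
    dgS d * sE M * (dgS d)⁻¹ = sE M' := by
  refine conj_blk _ _ _ M M' ?_
  ext a b
  rw [diagonal_transpose, mul_diagonal, diagonal_mul, e]

theorem dgS_sh (d : Fin m → Fˣ) (i j : Fin m) (t : F) :
    dgS d * sE (shM i j t) * (dgS d)⁻¹ = sE (shM i j (d i * t * d j)) := by
  refine dgS_conj d _ _ fun a b => ?_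
  simp only [shM_val, Matrix.add_apply, Matrix.single_apply]
  split_ifs with h1 h2 h2 <;> try obtain ⟨rfl, rfl⟩ := h1
  all_goals try obtain ⟨rfl, h3⟩ := h2
  all_goals first | (subst h3; ring) | ring

theorem dgS_lg (d : Fin m → Fˣ) (i : Fin m) (t : F) :
    dgS d * sE (lgM i t) * (dgS d)⁻¹ = sE (lgM i (d i * t * d i)) := by
  refine dgS_conj d _ _ fun a b => ?_
  simp only [lgM_val, Matrix.single_apply]
  split_ifs with h
  · obtain ⟨rfl, rfl⟩ := h; rfl
  · ring

theorem dgS_tv (d : Fin m → Fˣ) {i j : Fin m} (hij : i ≠ j) (t : F) :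
    dgS d * tv i j t * (dgS d)⁻¹ = tv i j (d i * t / d j) := by
  rw [mul_inv_eq_iff_eq_mul]
  apply Subtype.ext
  rw [Submonoid.coe_mul, Submonoid.coe_mul, tv_val hij, tv_val hij, dgS, blk_val, fromBlocks_multiply,
    fromBlocks_multiply]
  simp only [Matrix.mul_zero, Matrix.zero_mul, add_zero, zero_add]
  congr 1 <;> ext a b <;>
    simp only [mul_add, add_mul, mul_sub, sub_mul, one_mul, mul_one, Matrix.add_apply, Matrix.sub_apply,
      Matrix.diagonal_mul, Matrix.mul_diagonal, Matrix.single_apply, Units.val_inv_eq_inv_val] <;>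
    split_ifs with h <;> rcases eq_or_ne a b with rfl | hab <;>
    first
      | (obtain ⟨rfl, rfl⟩ := h; simp_all [Matrix.one_apply]; done)
      | (obtain ⟨rfl, rfl⟩ := h; simp [Matrix.one_apply, hab]; field_simp)
      | simp [Matrix.one_apply, hab]
      | simp [Matrix.one_apply, mul_comm]

/-! ## Partial flips -/

/-- The flip of the `j`-th hyperbolic pair. -/
def flip (j : Fin m) : Gp :=
  ⟨fromBlocks (1 - single j j 1) (-single j j 1) (single j j 1) (1 - single j j 1), by
    rw [SymplecticGroup.mem_iff, J, fromBlocks_multiply, fromBlocks_transpose, fromBlocks_multiply]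
    congr 1 <;>
      simp [mul_sub, sub_mul, add_mul, mul_add, transpose_sub, transpose_single, single_mul_single_same] <;>
      abel⟩

theorem flip_val (j : Fin m) :
    ((flip j : Gp) : Matrix (Fin m ⊕ Fin m) (Fin m ⊕ Fin m) F) =
      fromBlocks (1 - single j j 1) (-single j j 1) (single j j 1) (1 - single j j 1) := rfl

theorem flip_tv {i j : Fin m} (hij : i ≠ j) (t : F) :
    flip j * tv i j t * (flip j)⁻¹ = sE (shM i j t) := by
  rw [mul_inv_eq_iff_eq_mul]
  apply Subtype.ext
  rw [Submonoid.coe_mul, Submonoid.coe_mul, flip_val, tv_val hij, sE_val, fromBlocks_multiply,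
    fromBlocks_multiply, shM_val]
  congr 1 <;>
    simp [mul_sub, sub_mul, add_mul, mul_add, single_mul_single_same,
      single_mul_single_of_ne _ _ _ _ hij, single_mul_single_of_ne _ _ _ _ hij.symm] <;> abel

theorem flip_tv_fix {i k j : Fin m} (hik : i ≠ k) (hji : j ≠ i) (hjk : j ≠ k) (t : F) :
    flip j * tv i k t * (flip j)⁻¹ = tv i k t := by
  rw [mul_inv_eq_iff_eq_mul]
  apply Subtype.ext
  rw [Submonoid.coe_mul, Submonoid.coe_mul, flip_val, tv_val hik, fromBlocks_multiply,
    fromBlocks_multiply]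
  congr 1 <;>
    simp [mul_sub, sub_mul, add_mul, mul_add, single_mul_single_of_ne _ _ _ _ hji,
      single_mul_single_of_ne _ _ _ _ hjk, single_mul_single_of_ne _ _ _ _ hji.symm,
      single_mul_single_of_ne _ _ _ _ hjk.symm] <;> abel

theorem flip_sh_fix {a b j : Fin m} (hja : j ≠ a) (hjb : j ≠ b) (t : F) :
    flip j * sE (shM a b t) * (flip j)⁻¹ = sE (shM a b t) := by
  rw [mul_inv_eq_iff_eq_mul]
  apply Subtype.ext
  rw [Submonoid.coe_mul, Submonoid.coe_mul, flip_val, sE_val, fromBlocks_multiply,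
    fromBlocks_multiply, shM_val]
  congr 1 <;>
    simp [mul_sub, sub_mul, add_mul, mul_add, single_mul_single_of_ne _ _ _ _ hja,
      single_mul_single_of_ne _ _ _ _ hjb, single_mul_single_of_ne _ _ _ _ hja.symm,
      single_mul_single_of_ne _ _ _ _ hjb.symm] <;> abel

theorem flip_lg_fix {a j : Fin m} (hja : j ≠ a) (t : F) :
    flip j * sE (lgM a t) * (flip j)⁻¹ = sE (lgM a t) := by
  rw [mul_inv_eq_iff_eq_mul]
  apply Subtype.ext
  rw [Submonoid.coe_mul, Submonoid.coe_mul, flip_val, sE_val, fromBlocks_multiply,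
    fromBlocks_multiply, lgM_val]
  congr 1 <;>
    simp [mul_sub, sub_mul, add_mul, mul_add, single_mul_single_of_ne _ _ _ _ hja,
      single_mul_single_of_ne _ _ _ _ hja.symm] <;> abel

end Cfsg.Agent.CentralExt.SpMult
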