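import Cfsg.Agent.CentralExt.SpMult.Pairing
import Cfsg.Agent.Spec.StPres.Final

/-!
# The Levi subgroup `SL_m` splits in central `p`-extensions of `Sp_{2m}(q)`, `m ≥ 3`
-/

set_option autoImplicit false
set_option linter.unusedSectionVars false

namespace Cfsg.Agent.CentralExt.SpMult

open Cfsg.Agent.CentralExt
open Cfsg.Agent.CentralExt.Laced (IsCentralMap lift_comm_eq lift_commute hall_witt)
open scoped commutatorElement MatrixGroups

variable {F : Type*} [Field F] {m : ℕ}

local notation "Gp" => Matrix.symplecticGroup (Fin m) F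

theorem tv_add {i j : Fin m} (hij : i ≠ j) (t u : F) : (tv i j t : Gp) * tv i j u = tv i j (t + u) := by
  rw [tv_eq hij, tv_eq hij, tv_eq hij, ← map_mul]
  congr 1
  exact Subtype.ext (Matrix.transvection_mul_transvection_same i j hij t u)

theorem comm_tv_tv {i k j : Fin m} (hij : i ≠ j) (hik : i ≠ k) (hkj : k ≠ j) (t u : F) :
    ⁅(tv i k t : Gp), tv k j u⁆ = tv i j (t * u) := by
  rw [tv_eq hik, tv_eq hkj, tv_eq hij, ← map_commutatorElement,
    Cfsg.Agent.Linear.transvection_commutator hij hik hkj]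

variable {E : Type*} [Group E] {p : ℕ} [Fact p.Prime] [CharP F p] [Fintype F]
  {τ : E →* Matrix.symplecticGroup (Fin m) F} (hC : Cover p τ) (hG : Good m (Fintype.card F))

/-- A chosen lift. -/
noncomputable def lift (g : Gp) : E := Function.surjInv hC.surj g

theorem τ_lift (g : Gp) : τ (lift hC g) = g := Function.surjInv_eq hC.surj g

/-- The commutator of lifts of two Levi root elements through a middle index. -/
noncomputable def P (i k j : Fin m) (t u : F) : E := ⁅lift hC (tv i k t), lift hC (tv k j u)⁆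

theorem τ_P {i k j : Fin m} (hij : i ≠ j) (hik : i ≠ k) (hkj : k ≠ j) (t u : F) :
    τ (P hC i k j t u) = tv i j (t * u) := by
  rw [P, map_commutatorElement, τ_lift, τ_lift, comm_tv_tv hij hik hkj]

include hG in
theorem P_add_left {i k j : Fin m} (hij : i ≠ j) (hik : i ≠ k) (hkj : k ≠ j) (t t' u : F) :
    P hC i k j (t + t') u = P hC i k j t u * P hC i k j t' u := by
  rw [P, lift_comm_eq (isCentralMap hC) (x := lift hC (tv i k t) * lift hC (tv i k t'))
    (y := lift hC (tv k j u)) (by rw [map_mul, τ_lift, τ_lift, τ_lift, tv_add hik]) rfl]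
  have e : ∀ a a' b : E, ⁅a * a', b⁆ = a * ⁅a', b⁆ * a⁻¹ * ⁅a, b⁆ := fun a a' b => by
    simp only [commutatorElement_def]; group
  have h1 : Commute (lift hC (tv i k t)) (P hC i k j t' u) :=
    CL.tv_tv hC hG hik hij hij hik.symm _ _ _ _ (τ_lift hC _) (τ_P hC hij hik hkj t' u)
  rw [e, ← P, ← P, h1.eq, mul_inv_cancel_right]
  exact (CL.tv_tv hC hG hij hij hij hij.symm _ _ _ _ (τ_P hC hij hik hkj t' u) (τ_P hC hij hik hkj t u)).eq

include hG in
theorem P_add_right {i k j : Fin m} (hij : i ≠ j) (hik : i ≠ k) (hkj : k ≠ j) (t u u' : F) :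
    P hC i k j t (u + u') = P hC i k j t u * P hC i k j t u' := by
  rw [P, lift_comm_eq (isCentralMap hC) (x := lift hC (tv i k t))
    (y := lift hC (tv k j u) * lift hC (tv k j u')) rfl (by rw [map_mul, τ_lift, τ_lift, τ_lift, tv_add hkj])]
  have e : ∀ a b b' : E, ⁅a, b * b'⁆ = ⁅a, b⁆ * (b * ⁅a, b'⁆ * b⁻¹) := fun a b b' => by
    simp only [commutatorElement_def]; group
  have h1 : Commute (lift hC (tv k j u)) (P hC i k j t u') :=
    CL.tv_tv hC hG hkj hij hkj hij.symm _ _ _ _ (τ_lift hC _) (τ_P hC hij hik hkj t u')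
  rw [e, ← P, ← P, h1.eq, mul_inv_cancel_right]

include hG in
theorem P_zero {i k j : Fin m} (hij : i ≠ j) (hik : i ≠ k) (hkj : k ≠ j) (t : F) :
    P hC i k j 0 t = 1 ∧ P hC i k j t 0 = 1 := by
  constructor
  · have := P_add_left hC hG hij hik hkj 0 0 t
    rw [add_zero] at this; exact mul_eq_left.1 this.symm
  · have := P_add_right hC hG hij hik hkj t 0 0
    rw [add_zero] at this; exact mul_eq_left.1 this.symm

include hG in
theorem P_link {i k l j : Fin m} (hij : i ≠ j) (hik : i ≠ k) (hkj : k ≠ j) (hil : i ≠ l) (hlj : l ≠ j)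
    (hkl : k ≠ l) (t s u : F) : P hC i l j (t * s) u = P hC i k j t (s * u) := by
  have hA : τ ⁅lift hC (tv i k t), lift hC (tv k l s)⁆ = tv i l (t * s) := τ_P hC hil hik hkl t s
  have hQ : τ ⁅lift hC (tv k l s), lift hC (tv l j u)⁆ = tv k j (s * u) := τ_P hC hkj hkl hlj s u
  rw [P, lift_comm_eq (isCentralMap hC) (x := ⁅lift hC (tv i k t), lift hC (tv k l s)⁆)
      (y := lift hC (tv l j u)) (by rw [τ_lift, hA]) rfl,
    P, lift_comm_eq (isCentralMap hC) (x := lift hC (tv i k t))
      (y := ⁅lift hC (tv k l s), lift hC (tv l j u)⁆) (y' := lift hC (tv k j (s * u))) rfl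
      (by rw [τ_lift, hQ])]
  refine hall_witt (CL.tv_tv hC hG hik hlj hij hkl t u _ _ (τ_lift hC _) (τ_lift hC _))
    (CL.tv_tv hC hG hil hkj hij hkl.symm _ _ _ _ hA hQ) ?_
  refine CL.tv_tv hC hG hij hkj hij hkj.symm (t * (s * u)) (s * u) _ _ ?_ hQ
  rw [map_commutatorElement, τ_lift, hQ, comm_tv_tv hij hik hkj]

include hG in
theorem P_balanced {i k j : Fin m} (hij : i ≠ j) (hik : i ≠ k) (hkj : k ≠ j) (t s u : F) :
    P hC i k j (t * s) u = P hC i k j t (s * u) := by
  classical
  rcases eq_or_ne s 0 with rfl | hs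
  · rw [mul_zero, zero_mul, (P_zero hC hG hij hik hkj u).1, (P_zero hC hG hij hik hkj t).2]
  set d : Fin m → Fˣ := Pi.mulSingle k (Units.mk0 s hs)
  have hτP := τ_P hC hij hik hkj (t * s) u
  have hfix : dgS d * tv i j (t * s * u) * (dgS d)⁻¹ = tv i j (t * s * u) := by
    rw [dgS_tv d hij]
    congr 1
    simp [d, Pi.mulSingle_apply, hik, hkj.symm]
  have hcomm : Commute (P hC i k j (t * s) u) (lift hC (dgS d)) := by
    refine Free.commute_of_pGroup hC.cen hC.pgrp ?_ (b := Fintype.card F - 1)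
      (by rw [τ_lift, dgS_pow_eq_one]) ?_
    · rw [τ_lift, hτP]
      exact (mul_inv_eq_iff_eq_mul.1 hfix).symm
    · obtain ⟨f, -, hf⟩ := FiniteField.card F p
      intro hd
      have h1 : p ∣ Fintype.card F := hf ▸ dvd_pow_self p f.ne_zero
      have h2 : 1 < Fintype.card F := Fintype.one_lt_card
      have h3 := Nat.dvd_sub h1 hd
      rw [show Fintype.card F - (Fintype.card F - 1) = 1 by omega] at h3
      exact (Fact.out : p.Prime).not_dvd_one h3
  calc P hC i k j (t * s) u
      = lift hC (dgS d) * P hC i k j (t * s) u * (lift hC (dgS d))⁻¹ := by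
        rw [← hcomm.eq, mul_inv_cancel_right]
    _ = P hC i k j t (s * u) := by
        rw [P, P, conjugate_commutatorElement]
        refine lift_comm_eq (isCentralMap hC) ?_ ?_
        · rw [map_mul, map_mul, map_inv, τ_lift, τ_lift, τ_lift, dgS_tv d hik]
          congr 1
          simp [d, Pi.mulSingle_apply, hik]
          field_simp
        · rw [map_mul, map_mul, map_inv, τ_lift, τ_lift, τ_lift, dgS_tv d hkj]
          congr 1
          simp [d, Pi.mulSingle_apply, hkj.symm]

include hG hC in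
/-- A section over the Levi subgroup `SL_m`. -/
theorem exists_levi_section (hm : 3 ≤ m) :
    ∃ Φ : SL(m, F) →* E, ∀ g, τ (Φ g) = lvS m F g := by
  classical
  choose mid hmid using fun i j : Fin m => exists_ne₂ hm i j
  have hπX : ∀ i j, i ≠ j → ∀ t, τ (P hC i (mid i j) j t 1) = tv i j t := fun i j hij t => by
    rw [τ_P hC hij (hmid i j).1.symm (hmid i j).2, mul_one]
  have hX : Cfsg.Agent.Spec.StPres.Sys F m (fun i j t => P hC i (mid i j) j t 1) := by
    refine ⟨fun i j hij t u => (P_add_left hC hG hij (hmid i j).1.symm (hmid i j).2 t u 1).symm,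
      fun i j k l hij hkl hil hjk t u =>
        (CL.tv_tv hC hG hij hkl hil hjk _ _ _ _ (hπX i j hij t) (hπX k l hkl u)).eq, ?_⟩
    intro i j l hij hjl hil t u
    have e : ⁅P hC i (mid i j) j t 1, P hC j (mid j l) l u 1⁆ = P hC i (mid i l) l (t * u) 1 := by
      rw [lift_comm_eq (isCentralMap hC) (x := lift hC (tv i j t)) (y := lift hC (tv j l u))
        (by rw [τ_lift, hπX i j hij]) (by rw [τ_lift, hπX j l hjl])]
      change P hC i j l t u = _
      have hb := P_balanced hC hG hil hij hjl t u 1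
      rw [mul_one] at hb
      rw [← hb]
      rcases eq_or_ne j (mid i l) with h | h
      · rw [← h]
      · have := P_link hC hG hil hij hjl (hmid i l).1.symm (hmid i l).2 h (t * u) 1 1
        rw [mul_one, mul_one] at this
        exact this.symm
    rw [← e, commutatorElement_def]; group
  obtain ⟨Φ, hΦ⟩ := Cfsg.Agent.Spec.StPres.exists_hom hm hX
  haveI : Nontrivial (Fin m) := Fin.nontrivial_iff_two_le.2 (by omega)
  refine ⟨Φ, fun g => ?_⟩
  induction g using Cfsg.Agent.Linear.transvection_induction with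
  | htransvec i j h c => rw [hΦ i j h c, hπX i j h c, tv_eq h]
  | hmul A B hA hB => rw [map_mul, map_mul, map_mul, hA, hB]

end Cfsg.Agent.CentralExt.SpMult
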