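import Cfsg.Agent.CentralExt.Free
import Cfsg.Agent.CentralExt.SpMult.Elem

/-!
# Commuting lifts in central `p`-extensions of `Sp_{2m}(q)`

Lifts of elements of the Siegel unipotent radical, and of the commuting pairs of Levi root elements,
commute.
-/

set_option autoImplicit false
set_option linter.unusedSectionVars false

namespace Cfsg.Agent.CentralExt.SpMult

open Cfsg.Agent.CentralExt
open Cfsg.Agent.CentralExt.Laced (IsCentralMap lift_comm_eq lift_commute commute_of_decomp)
open scoped commutatorElement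

variable {F : Type*} [Field F] {m : ℕ}

local notation "Gp" => Matrix.symplecticGroup (Fin m) F

variable {E : Type*} [Group E]

/-- A central extension with `p`-group kernel. -/
structure Cover (p : ℕ) (τ : E →* Matrix.symplecticGroup (Fin m) F) : Prop where
  surj : Function.Surjective τ
  cen : τ.ker ≤ Subgroup.center E
  pgrp : IsPGroup p τ.ker

/-- All lifts of `x` commute with all lifts of `y`. -/
def CL (τ : E →* Matrix.symplecticGroup (Fin m) F) (x y : Gp) : Prop :=
  ∀ a b : E, τ a = x → τ b = y → Commute a b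

variable {p : ℕ} {τ : E →* Matrix.symplecticGroup (Fin m) F} (hC : Cover p τ)

include hC in
theorem isCentralMap : IsCentralMap τ :=
  fun _ hz g => Subgroup.mem_center_iff.1 (hC.cen hz) g

theorem CL.symm {x y : Gp} (h : CL τ x y) : CL τ y x := fun a b ha hb => (h b a hb ha).symm

include hC in
theorem CL.self (x : Gp) : CL τ x x := fun a b ha hb =>
  lift_commute (isCentralMap hC) (x := a) (y := a) rfl (by rw [ha, hb]) (Commute.refl a)

include hC in
theorem CL.one_right (x : Gp) : CL τ x 1 := fun a b _ hb =>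
  Subgroup.mem_center_iff.1 (hC.cen hb) a

include hC in
theorem CL.mul_right {x y z : Gp} (h : CL τ x y) (h' : CL τ x z) : CL τ x (y * z) := by
  intro a b ha hb
  obtain ⟨c, hc⟩ := hC.surj y
  have h2 := h' a (c⁻¹ * b) ha (by rw [map_mul, map_inv, hc, hb, inv_mul_cancel_left])
  have h3 := (h a c ha hc).mul_right h2
  rwa [mul_inv_cancel_left] at h3

include hC in
theorem CL.cancel_left {x y z : Gp} (h : CL τ x (y * z)) (h' : CL τ x y) : CL τ x z := by
  intro a b ha hb
  obtain ⟨c, hc⟩ := hC.surj y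
  have h3 := (h' a c ha hc).inv_right.mul_right (h a (c * b) ha (by rw [map_mul, hc, hb]))
  rwa [inv_mul_cancel_left] at h3

include hC in
theorem CL.cancel_right {x y z : Gp} (h : CL τ x (y * z)) (h' : CL τ x z) : CL τ x y := by
  intro a b ha hb
  obtain ⟨c, hc⟩ := hC.surj z
  have h3 := (h a (b * c) ha (by rw [map_mul, hc, hb])).mul_right (h' a c ha hc).inv_right
  rwa [mul_inv_cancel_right] at h3

include hC in
theorem CL.mul_left {x y z : Gp} (h : CL τ x z) (h' : CL τ y z) : CL τ (x * y) z :=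
  (CL.mul_right hC h.symm h'.symm).symm

include hC in
theorem CL.pow_right {x y : Gp} (h : CL τ x y) : ∀ k : ℕ, CL τ x (y ^ k)
  | 0 => by rw [pow_zero]; exact CL.one_right hC x
  | k + 1 => by rw [pow_succ]; exact CL.mul_right hC (CL.pow_right h k) h

include hC in
theorem CL.conj {x y : Gp} (g : Gp) (h : CL τ x y) : CL τ (g * x * g⁻¹) (g * y * g⁻¹) := by
  intro a b ha hb
  obtain ⟨e, he⟩ := hC.surj g
  have h1 := h (e⁻¹ * a * e) (e⁻¹ * b * e) (by simp [ha, he, mul_assoc]) (by simp [hb, he, mul_assoc])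
  have h2 := (Commute.conj_iff e).2 h1
  simpa [mul_assoc] using h2

include hC in
theorem CL.of_conj {x y : Gp} (g : Gp) (h : CL τ (g * x * g⁻¹) (g * y * g⁻¹)) : CL τ x y := by
  have := CL.conj hC g⁻¹ h
  simpa [mul_assoc] using this

include hC in
/-- If `g` fixes `y` and moves `x` to `x' x`, lifts of `x'` and `y` commute. -/
theorem CL.of_fix {x x' y g : Gp} (hxy : Commute x y) (hg : g * x * g⁻¹ = x' * x)
    (hgy : g * y * g⁻¹ = y) : CL τ x' y := by
  intro a b ha hb
  obtain ⟨c, hc⟩ := hC.surj x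
  obtain ⟨e, he⟩ := hC.surj g
  have hcen : ∀ z, Commute z ⁅c, b⁆ := fun z => Subgroup.mem_center_iff.1
    (hC.cen (show τ ⁅c, b⁆ = 1 by
      rw [map_commutatorElement, hc, hb, commutatorElement_eq_one_iff_mul_comm]; exact hxy)) z
  have h1 : ⁅a * c, b⁆ = ⁅e * c * e⁻¹, e * b * e⁻¹⁆ :=
    lift_comm_eq (isCentralMap hC) (by simp [ha, hc, he, hg]) (by simp [hb, he, hgy])
  rw [← conjugate_commutatorElement, (hcen e).eq, mul_inv_cancel_right] at h1
  have h2 : ⁅a * c, b⁆ = a * ⁅c, b⁆ * a⁻¹ * ⁅a, b⁆ := by simp only [commutatorElement_def]; group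
  rw [h2, (hcen a).eq, mul_inv_cancel_right, mul_eq_left] at h1
  exact commutatorElement_eq_one_iff_mul_comm.1 h1

include hC in
theorem CL.of_decomp {x u v y : Gp} (hu : Commute x u) (hv : Commute x v) (hy : ⁅u, v⁆ = y) :
    CL τ x y := by
  intro a b ha hb
  obtain ⟨c, hc⟩ := hC.surj u
  obtain ⟨d, hd⟩ := hC.surj v
  exact commute_of_decomp (isCentralMap hC) (a := c) (b := d) (by rw [ha, hc]; exact hu)
    (by rw [ha, hd]; exact hv) (by rw [hb, hc, hd, hy])

/-! ## The Siegel radical -/

/-- The pairs `(m, q)` considered. -/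
structure Good (m q : ℕ) : Prop where
  two_le : 2 ≤ m
  two : m = 2 → q ≠ 2
  three : m = 3 → q ≠ 2

theorem comm_tv_sh {j l k : Fin m} (hjl : j ≠ l) (hlk : l ≠ k) (t u : F) :
    ⁅(tv j l t : Gp), sE (shM l k u)⁆ = sE (shM j k (t * u)) := by
  rw [commutatorElement_def, tv_sh_move hjl hlk, sE_inv, sE_add]
  congr 1
  abel

theorem exists_ne₂ (hm : 3 ≤ m) (i j : Fin m) : ∃ l, l ≠ i ∧ l ≠ j := by
  obtain ⟨l, -, hl⟩ := Finset.exists_mem_notMem_of_card_lt_card (s := ({i, j} : Finset (Fin m)))
    (t := Finset.univ) (lt_of_le_of_lt Finset.card_le_two (by rw [Finset.card_univ, Fintype.card_fin]; omega))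
  simp only [Finset.mem_insert, Finset.mem_singleton, not_or] at hl
  exact ⟨l, hl⟩

theorem exists_ne₃ (hm : 4 ≤ m) (i j k : Fin m) : ∃ l, l ≠ i ∧ l ≠ j ∧ l ≠ k := by
  obtain ⟨l, -, hl⟩ := Finset.exists_mem_notMem_of_card_lt_card (s := ({i, j, k} : Finset (Fin m)))
    (t := Finset.univ) (lt_of_le_of_lt Finset.card_le_three (by rw [Finset.card_univ, Fintype.card_fin]; omega))
  simp only [Finset.mem_insert, Finset.mem_singleton, not_or] at hl
  exact ⟨l, hl⟩

variable [Fintype F] (hG : Good m (Fintype.card F))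

theorem exists_nat_cast (hp : p.Prime) (hq : Fintype.card F = p) (t : F) : ∃ k : ℕ, (k : F) = t := by
  haveI : Fact p.Prime := ⟨hp⟩
  haveI : CharP F p := charP_of_card_eq_prime hq
  have hb : Function.Bijective (ZMod.castHom (dvd_refl p) F) := by
    refine (Fintype.bijective_iff_injective_and_card _).2 ⟨RingHom.injective _, ?_⟩
    rw [ZMod.card, hq]
  obtain ⟨z, rfl⟩ := hb.2 t
  exact ⟨z.val, by rw [ZMod.natCast_val]; rfl⟩

include hC hG in
theorem CL.long_short (i j k : Fin m) (hjk : j ≠ k) (u v : F) :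
    CL τ (sE (lgM i u)) (sE (shM j k v)) := by
  classical
  rcases eq_or_ne i j with rfl | hij
  · by_cases h2 : Fintype.card F = 2
    · have hm : 3 ≤ m := by have := hG.two_le; have := hG.two; omega
      obtain ⟨l, hli, hlk⟩ := exists_ne₂ hm i k
      refine CL.of_decomp hC (u := tv i l v) (v := sE (shM l k 1)) ?_ (sE_commute _ _)
        (by rw [comm_tv_sh hli.symm hlk, mul_one])
      exact (mul_inv_eq_iff_eq_mul.1 (tv_lg_fix hli.symm hli v u)).symm
    · obtain ⟨c, hc0, hc1⟩ : ∃ c : F, c ≠ 0 ∧ c ≠ 1 := exists_ne_zero_one h2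
      refine (CL.of_fix hC (x := sE (shM i k (v / (c - 1)))) (g := dgS (Pi.mulSingle k (Units.mk0 c hc0)))
        (sE_commute _ _) ?_ ?_).symm
      · rw [dgS_sh, sE_add, ← shM_add]
        congr 2
        have : c - 1 ≠ 0 := sub_ne_zero.2 hc1
        simp [Pi.mulSingle_apply, hjk]
        field_simp; ring
      · rw [dgS_lg]; simp [Pi.mulSingle_apply, hjk]
  · rcases eq_or_ne i k with rfl | hik
    · rw [shM_comm]
      by_cases h2 : Fintype.card F = 2
      · have hm : 3 ≤ m := by have := hG.two_le; have := hG.two; omega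
        obtain ⟨l, hli, hlj⟩ := exists_ne₂ hm i j
        refine CL.of_decomp hC (u := tv i l v) (v := sE (shM l j 1)) ?_ (sE_commute _ _)
          (by rw [comm_tv_sh hli.symm hlj, mul_one])
        exact (mul_inv_eq_iff_eq_mul.1 (tv_lg_fix hli.symm hli v u)).symm
      · obtain ⟨c, hc0, hc1⟩ : ∃ c : F, c ≠ 0 ∧ c ≠ 1 := exists_ne_zero_one h2
        refine (CL.of_fix hC (x := sE (shM i j (v / (c - 1)))) (g := dgS (Pi.mulSingle j (Units.mk0 c hc0)))
          (sE_commute _ _) ?_ ?_).symm
        · rw [dgS_sh, sE_add, ← shM_add]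
          congr 2
          have : c - 1 ≠ 0 := sub_ne_zero.2 hc1
          simp [Pi.mulSingle_apply, hij]
          field_simp; ring
        · rw [dgS_lg]; simp [Pi.mulSingle_apply, hij]
    · by_cases h2 : Fintype.card F = 2
      · have hm : 4 ≤ m := by have := hG.two_le; have := hG.two; have := hG.three; omega
        obtain ⟨l, hli, hlj, hlk⟩ := exists_ne₃ hm i j k
        refine CL.of_decomp hC (u := tv j l v) (v := sE (shM l k 1)) ?_ (sE_commute _ _)
          (by rw [comm_tv_sh hlj.symm hlk, mul_one])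
        exact (mul_inv_eq_iff_eq_mul.1 (tv_lg_fix hlj.symm hli v u)).symm
      · obtain ⟨c, hc0, hc1⟩ : ∃ c : F, c ≠ 0 ∧ c ≠ 1 := exists_ne_zero_one h2
        refine (CL.of_fix hC (x := sE (shM j k (v / (c - 1)))) (g := dgS (Pi.mulSingle j (Units.mk0 c hc0)))
          (sE_commute _ _) ?_ ?_).symm
        · rw [dgS_sh, sE_add, ← shM_add]
          congr 2
          have : c - 1 ≠ 0 := sub_ne_zero.2 hc1
          simp [Pi.mulSingle_apply, hjk.symm]
          field_simp; ring
        · rw [dgS_lg]; simp [Pi.mulSingle_apply, hij]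
where
  exists_ne_zero_one (h2 : Fintype.card F ≠ 2) : ∃ c : F, c ≠ 0 ∧ c ≠ 1 := by
    classical
    obtain ⟨c, -, hc⟩ := Finset.exists_mem_notMem_of_card_lt_card (s := ({0, 1} : Finset F))
      (t := Finset.univ) (lt_of_le_of_lt Finset.card_le_two (by
        rw [Finset.card_univ]; have := Fintype.one_lt_card (α := F); omega))
    simp only [Finset.mem_insert, Finset.mem_singleton, not_or] at hc
    exact ⟨c, hc⟩

include hC hG in
/-- A long root against the long root obtained by moving along a Levi transvection. -/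
theorem CL.long_moved (i j k : Fin m) (hjk : j ≠ k) (hki : k ≠ i) (u v : F) :
    CL τ (sE (lgM i u)) (sE (lgM j v)) := by
  have h : CL τ (sE (shM j k v) * sE (lgM j v)) (sE (lgM i u)) := by
    refine CL.of_fix hC (x := sE (lgM k v)) (g := tv j k (1 : F)) (sE_commute _ _) ?_
      (tv_lg_fix hjk hki _ _)
    rw [tv_lg_move hjk, sE_add, sE_add, one_mul, mul_one, one_mul]
    congr 1
    abel
  exact CL.cancel_left hC h.symm (CL.long_short hC hG i j k hjk u v)

include hC hG in
/-- Same long root. -/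
theorem CL.long_self (i : Fin m) (u v : F) : CL τ (sE (lgM i u)) (sE (lgM i v)) := by
  obtain ⟨j, hj⟩ : ∃ j, j ≠ i :=
    haveI : Nontrivial (Fin m) := Fin.nontrivial_iff_two_le.2 hG.two_le
    exists_ne i
  exact CL.long_moved hC hG i i j hj.symm hj u v

include hC hG in
theorem CL.long_long [hp : Fact p.Prime] [CharP F p] (i j : Fin m) (u v : F) :
    CL τ (sE (lgM i u)) (sE (lgM j v)) := by
  classical
  rcases eq_or_ne i j with rfl | hij
  · exact CL.long_self hC hG i u v
  rcases (by have := Fintype.one_lt_card (α := F); omega :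
      Fintype.card F = 2 ∨ Fintype.card F = 3 ∨ 4 ≤ Fintype.card F) with h2 | h3 | h4
  · have hm : 3 ≤ m := by have := hG.two_le; have := hG.two; omega
    obtain ⟨k, hki, hkj⟩ := exists_ne₂ hm i j
    exact CL.long_moved hC hG i j k hkj.symm hki u v
  · have hprime : ∀ a b : F, CL τ (sE (shM i j a)) (sE (shM i j b)) := by
      intro a b
      have hp3 : Nat.Prime 3 := Nat.prime_three
      obtain ⟨ka, rfl⟩ := exists_nat_cast hp3 h3 a
      obtain ⟨kb, rfl⟩ := exists_nat_cast hp3 h3 b
      have e : ∀ k : ℕ, (sE (shM i j ((k : F))) : Gp) = sE (shM i j 1) ^ k := by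
        intro k
        induction k with
        | zero =>
          rw [pow_zero, Nat.cast_zero, show shM i j (0 : F) = 0 from Subtype.ext (by simp [shM_val]), sE_zero]
        | succ k ih => rw [pow_succ, ← ih, sE_add, ← shM_add, Nat.cast_succ]
      rw [e, e]
      exact (CL.pow_right hC (CL.pow_right hC (CL.self hC _) kb).symm ka).symm
    -- the transvection `j → i` on a long and a short root
    have h23 : (2 : F) ≠ 0 := by
      intro h
      obtain ⟨k, hk⟩ := exists_nat_cast Nat.prime_three h3 (1 : F)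
      have h30 : (3 : F) = 0 := by
        have := FiniteField.cast_card_eq_zero F; rw [h3] at this; exact_mod_cast this
      exact one_ne_zero (show (1 : F) = 0 by linear_combination h30 - h)
    have hcj := CL.conj hC (tv j i (1 : F)) (CL.long_short hC hG i i j hij u (v / 2))
    rw [shM_comm i j (v / 2), tv_lg_move hij.symm, tv_sh_self hij.symm, ← sE_add, ← sE_add, ← sE_add,
      one_mul, one_mul, one_mul, mul_one, mul_div_cancel₀ _ h23, shM_comm j i (v / 2), shM_comm j i u] at hcj
    have h1 := CL.cancel_left hC hcj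
      (CL.mul_left hC (CL.mul_left hC (CL.long_short hC hG i i j hij u (v / 2)) (hprime u (v / 2)))
        (CL.long_short hC hG j i j hij u (v / 2)))
    exact (CL.cancel_right hC (CL.cancel_right hC h1.symm (CL.long_self hC hG j v u))
      (CL.long_short hC hG j i j hij v u)).symm
  · obtain ⟨c, hc0, hc2⟩ : ∃ c : F, c ≠ 0 ∧ c ^ 2 ≠ 1 := by
      obtain ⟨x, hx⟩ : ∃ x : Fˣ, x ^ 2 ≠ 1 := not_forall.1 fun hall => by
        have := Nat.le_of_dvd (by norm_num) ((FiniteField.forall_pow_eq_one_iff F 2).1 hall)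
        omega
      exact ⟨x, x.ne_zero, fun e => hx (Units.ext (by simpa using e))⟩
    refine CL.of_fix hC (x := sE (lgM i (u / (c ^ 2 - 1)))) (g := dgS (Pi.mulSingle i (Units.mk0 c hc0)))
      (sE_commute _ _) ?_ ?_
    · rw [dgS_lg, sE_add, ← lgM_add]
      congr 2
      have : c ^ 2 - 1 ≠ 0 := sub_ne_zero.2 hc2
      simp [Pi.mulSingle_apply]
      field_simp; ring
    · rw [dgS_lg]; simp [Pi.mulSingle_apply, hij.symm]

include hC hG in
/-- Lifts of the Siegel radical commute. -/
theorem CL.siegel [Fact p.Prime] [CharP F p] (M N : Sym m F) : CL τ (sE M) (sE N) := by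
  have hll := fun i j u v => CL.long_long hC hG i j u v
  have hls := fun i j k h u v => CL.long_short hC hG i j k h u v
  have hss : ∀ i j k l : Fin m, i ≠ j → k ≠ l → ∀ u v : F, CL τ (sE (shM i j u)) (sE (shM k l v)) := by
    have hfix : ∀ i j k l : Fin m, i ≠ j → k ≠ l → l ≠ i → l ≠ j → ∀ u v : F,
        CL τ (sE (shM i j u)) (sE (shM k l v)) := by
      intro i j k l hij hkl hli hlj u v
      have h := CL.conj hC (tv k l (1 : F)) (hls l i j hij v u).symm
      rw [tv_sh_fix hkl hli hlj, tv_lg_move hkl, ← sE_add, ← sE_add, one_mul, one_mul, one_mul] at h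
      exact CL.cancel_left hC (CL.cancel_right hC h (hls k i j hij v u).symm) (hls l i j hij v u).symm
    intro i j k l hij hkl u v
    by_cases hl : l ≠ i ∧ l ≠ j
    · exact hfix i j k l hij hkl hl.1 hl.2 u v
    by_cases hk : k ≠ i ∧ k ≠ j
    · rw [shM_comm k l]; exact hfix i j l k hij hkl.symm hk.1 hk.2 u v
    -- the same root
    have hsame : CL τ (sE (shM i j u)) (sE (shM i j v)) := by
      have h := CL.conj hC (tv i j (1 : F)) (hls j i j hij v u).symm
      rw [tv_sh_self hij, tv_lg_move hij, ← sE_add, ← sE_add, ← sE_add, one_mul, one_mul, one_mul, mul_one] at h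
      have hl : CL τ (sE (lgM i (2 * u))) (sE (lgM j v) * sE (shM i j v) * sE (lgM i v)) :=
        CL.mul_right hC (CL.mul_right hC (hll _ _ _ _) (hls i i j hij _ v)) (hll _ _ _ _)
      have h' := CL.cancel_right hC h.symm hl.symm
      exact CL.cancel_left hC (CL.cancel_right hC h'.symm (hls i i j hij v u).symm)
        (hls j i j hij v u).symm
    rcases (show (k = i ∧ l = j) ∨ (k = j ∧ l = i) by grind) with ⟨rfl, rfl⟩ | ⟨rfl, rfl⟩
    · exact hsame
    · rw [shM_comm k l]; exact hsame
  induction M using sym_induction with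
  | h0 => rw [sE_zero]; exact (CL.one_right hC _).symm
  | hadd M₁ M₂ h₁ h₂ => rw [← sE_add]; exact CL.mul_left hC h₁ h₂
  | hl i t =>
    induction N using sym_induction with
    | h0 => rw [sE_zero]; exact CL.one_right hC _
    | hadd N₁ N₂ h₁ h₂ => rw [← sE_add]; exact CL.mul_right hC h₁ h₂
    | hl j u => exact hll i j t u
    | hs j k h u => exact hls i j k h.ne t u
  | hs i j h t =>
    induction N using sym_induction with
    | h0 => rw [sE_zero]; exact CL.one_right hC _
    | hadd N₁ N₂ h₁ h₂ => rw [← sE_add]; exact CL.mul_right hC h₁ h₂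
    | hl k u => exact (hls k i j h.ne u t).symm
    | hs k l h' u => exact hss i j k l h.ne h'.ne t u

/-! ## Levi root elements -/

include hC hG in
theorem CL.tv_tv [Fact p.Prime] [CharP F p] {i j k l : Fin m} (hij : i ≠ j) (hkl : k ≠ l) (hil : i ≠ l)
    (hjk : j ≠ k) (t u : F) : CL τ (tv i j t) (tv k l u) := by
  rcases eq_or_ne l j with rfl | hlj
  · refine CL.of_conj hC (flip l) ?_
    rw [flip_tv hij, flip_tv hkl]
    exact CL.siegel hC hG _ _
  · refine CL.of_conj hC (flip l) (CL.of_conj hC (flip j) ?_)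
    rw [flip_tv_fix hij hil.symm hlj, flip_tv hij, flip_tv hkl, flip_sh_fix hjk hlj.symm]
    exact CL.siegel hC hG _ _

include hC hG in
theorem CL.tv_sh [Fact p.Prime] [CharP F p] {k l a b : Fin m} (hkl : k ≠ l) (hla : l ≠ a) (hlb : l ≠ b)
    (t u : F) : CL τ (tv k l t) (sE (shM a b u)) := by
  refine CL.of_conj hC (flip l) ?_
  rw [flip_tv hkl, flip_sh_fix hla hlb]
  exact CL.siegel hC hG _ _

include hC hG in
theorem CL.tv_lg [Fact p.Prime] [CharP F p] {k l a : Fin m} (hkl : k ≠ l) (hla : l ≠ a) (t u : F) :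
    CL τ (tv k l t) (sE (lgM a u)) := by
  refine CL.of_conj hC (flip l) ?_
  rw [flip_tv hkl, flip_lg_fix hla]
  exact CL.siegel hC hG _ _

end Cfsg.Agent.CentralExt.SpMult
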